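import Mathlib

namespace Cfsg.Agent.Lib.Helper3.Avg

variable {L M : Type*} [Group L] [Finite L] [CommGroup M] [MulDistribMulAction L M]

/-- finset of the elements of a subgroup -/
noncomputable def fs (B : Subgroup L) : Finset L := (Set.toFinite (B : Set L)).toFinset

@[simp] theorem mem_fs {B : Subgroup L} {x : L} : x ∈ fs B ↔ x ∈ B := by
  simp [fs]

theorem card_fs (B : Subgroup L) : (fs B).card = Nat.card B := by
  rw [fs, ← Set.ncard_eq_toFinset_card (B : Set L)]
  rfl

/-- the norm of `m` under `B` -/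
noncomputable def nrm (B : Subgroup L) (m : M) : M := ∏ b ∈ fs B, b • m

theorem smul_nrm (B : Subgroup L) (m : M) {l : L} (hl : l ∈ B) : l • nrm B m = nrm B m := by
  classical
  unfold nrm
  rw [Finset.smul_prod']
  refine Finset.prod_bij (fun b _ => l * b) ?_ ?_ ?_ ?_
  · intro b hb
    rw [mem_fs] at hb ⊢
    exact B.mul_mem hl hb
  · intro a _ b _ h
    exact mul_left_cancel h
  · intro b hb
    rw [mem_fs] at hb
    exact ⟨l⁻¹ * b, by rw [mem_fs]; exact B.mul_mem (B.inv_mem hl) hb, by group⟩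
  · intro b _
    rw [mul_smul]

open Classical in
theorem nrm_eq (B : Subgroup L) (m : M) :
    nrm B m = m * ∏ b ∈ (fs B).erase 1, b • m := by
  classical
  unfold nrm
  rw [← Finset.mul_prod_erase (fs B) (fun b => b • m) (by rw [mem_fs]; exact B.one_mem), one_smul]

theorem nrm_of_fixed (B : Subgroup L) (m : M) (h : ∀ b ∈ B, b • m = m) :
    nrm B m = m ^ Nat.card B := by
  unfold nrm
  rw [Finset.prod_congr rfl (fun b hb => h b (mem_fs.1 hb)), Finset.prod_const, card_fs]

theorem nrm_mul (B : Subgroup L) (m n : M) : nrm B (m * n) = nrm B m * nrm B n := by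
  unfold nrm
  rw [← Finset.prod_mul_distrib]
  exact Finset.prod_congr rfl (fun b _ => smul_mul' b m n)

/-- the partition formula -/
theorem partition_formula (𝒜 : Finset (Subgroup L)) (hne : 𝒜.Nonempty)
    (hpart : ∀ a : L, a ≠ 1 → ∃! B, B ∈ 𝒜 ∧ a ∈ B) (m : M) :
    ∏ B ∈ 𝒜, nrm B m = nrm (⊤ : Subgroup L) m * m ^ (𝒜.card - 1) := by
  classical
  have h1 : ∏ B ∈ 𝒜, nrm B m = m ^ 𝒜.card * ∏ B ∈ 𝒜, ∏ b ∈ (fs B).erase 1, b • m := by
    rw [Finset.prod_congr rfl (fun (B : Subgroup L) _ => nrm_eq B m), Finset.prod_mul_distrib,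
      Finset.prod_const]
  have h2 : ∏ B ∈ 𝒜, ∏ b ∈ (fs B).erase 1, b • m
      = ∏ b ∈ (fs (⊤ : Subgroup L)).erase 1, b • m := by
    rw [← Finset.prod_biUnion]
    · apply Finset.prod_congr _ (fun _ _ => rfl)
      ext x
      simp only [Finset.mem_biUnion, Finset.mem_erase, mem_fs, Subgroup.mem_top, and_true]
      constructor
      · rintro ⟨B, _, hx, _⟩
        exact hx
      · intro hx
        obtain ⟨B, ⟨hB, hxB⟩, _⟩ := hpart x hx
        exact ⟨B, hB, hx, hxB⟩
    · intro B hB C hC hBC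
      rw [Function.onFun, Finset.disjoint_left]
      intro x hx hx'
      simp only [Finset.mem_erase, mem_fs] at hx hx'
      obtain ⟨D, _, hD⟩ := hpart x hx.1
      exact hBC ((hD B ⟨hB, hx.2⟩).trans (hD C ⟨hC, hx'.2⟩).symm)
  rw [h1, h2, nrm_eq ⊤ m]
  have h3 : 𝒜.card = (𝒜.card - 1) + 1 := by
    have := Finset.card_pos.2 hne
    omega
  conv_lhs => rw [h3, pow_succ]
  rw [mul_assoc, mul_comm]
  

/-- abstract partition lemma -/
theorem exists_fixed_of_partition [Finite M] [Nontrivial M] (𝒜 : Finset (Subgroup L))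
    (hne : 𝒜.Nonempty) (hpart : ∀ a : L, a ≠ 1 → ∃! B, B ∈ 𝒜 ∧ a ∈ B)
    (hk : (𝒜.card - 1).Coprime (Nat.card M)) :
    ∃ B ∈ 𝒜, ∃ m : M, m ≠ 1 ∧ ∀ b ∈ B, b • m = m := by
  classical
  by_contra hcon
  push Not at hcon
  have hB : ∀ B ∈ 𝒜, ∀ m : M, nrm B m = 1 := by
    intro B hB m
    by_contra h
    obtain ⟨b, hb, hb'⟩ := hcon B hB (nrm B m) h
    exact hb' (smul_nrm B m hb)
  have hT : ∀ m : M, nrm (⊤ : Subgroup L) m = 1 := by
    intro m
    obtain ⟨B, hB'⟩ := hne
    by_contra h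
    obtain ⟨b, hb, hb'⟩ := hcon B hB' (nrm ⊤ m) h
    exact hb' (smul_nrm ⊤ m (Subgroup.mem_top b))
  obtain ⟨m, hm⟩ := exists_ne (1 : M)
  have h := partition_formula 𝒜 hne hpart m
  rw [hT m, one_mul, Finset.prod_congr rfl (fun B hB' => hB B hB' m), Finset.prod_const_one] at h
  have h1 : orderOf m ∣ 𝒜.card - 1 := orderOf_dvd_of_pow_eq_one h.symm
  have h2 : orderOf m ∣ Nat.card M := orderOf_dvd_natCard m
  have h3 : orderOf m = 1 := Nat.eq_one_of_dvd_coprimes hk h1 h2
  exact hm (orderOf_eq_one_iff.1 h3)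

section bridge

variable {G : Type*} [Group G]

/-- commutative group structure on a commutative subgroup -/
@[reducible] def cg (V : Subgroup G) (h : IsMulCommutative V) : CommGroup V :=
  { (inferInstance : Group V) with mul_comm := h.is_comm.comm }

/-- conjugation action of `A ≤ N(V)` on `V` -/
@[reducible] def act (A V : Subgroup G) (hAV : A ≤ Subgroup.normalizer (V : Set G)) :
    MulDistribMulAction A V :=
  MulDistribMulAction.compHom V (V.normalizerMonoidHom.comp (Subgroup.inclusion hAV))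

theorem act_coe (A V : Subgroup G) (hAV : A ≤ Subgroup.normalizer (V : Set G)) (a : A) (v : V) :
    (((act A V hAV).smul a v : V) : G) = a * v * (a : G)⁻¹ := rfl

/-- fixed points of the conjugation action are centralizer elements -/
theorem mem_centralizer_of_fixed (A V : Subgroup G) (hAV : A ≤ Subgroup.normalizer (V : Set G))
    (B : Subgroup A) (v : V) (h : ∀ b ∈ B, (act A V hAV).smul b v = v) :
    (v : G) ∈ Subgroup.centralizer ((B.map A.subtype : Subgroup G) : Set G) := by
  rw [Subgroup.mem_centralizer_iff]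
  rintro x ⟨b, hb, rfl⟩
  have h1 := congrArg (Subtype.val) (h b hb)
  rw [act_coe] at h1
  show (b : G) * v = v * b
  calc (b : G) * v = ((b : G) * v * (b : G)⁻¹) * b := by group
    _ = v * b := by rw [h1]

end bridge

end Cfsg.Agent.Lib.Helper3.Avg
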