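import Cfsg.Agent.Lib.Helper3.Avg
import Cfsg.Agent.Lib.Helper1.FrobC

open Pointwise

namespace Cfsg.Agent.Lib.Helper3.Avg

variable {L M : Type*} [Group L] [Finite L] [CommGroup M] [MulDistribMulAction L M]

theorem mem_conj_smul {H : Subgroup L} {g x : L} :
    x ∈ MulAut.conj g • H ↔ g⁻¹ * x * g ∈ H := by
  rw [Subgroup.mem_pointwise_smul_iff_inv_smul_mem, MulAut.smul_def, ← map_inv, MulAut.conj_apply,
    inv_inv]

theorem conj_mul_smul {H : Subgroup L} (k : L) {h : L} (hh : h ∈ H) :
    MulAut.conj (k * h) • H = MulAut.conj k • H := by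
  rw [map_mul, mul_smul, Subgroup.conj_smul_eq_self_of_mem hh]

/-- A Frobenius group acting on a nontrivial abelian group of order prime to that of the kernel,
the kernel acting without fixed points: the complement has fixed points. -/
theorem frob_fixed [Finite M] [Nontrivial M] (H : Subgroup L) (hH : Cfsg.IsFrobeniusComplement H)
    (hcop : (Nat.card M).Coprime (Nat.card (Cfsg.frobeniusKernel H)))
    (hCK : ∀ m : M, (∀ k ∈ Cfsg.frobeniusKernel H, k • m = m) → m = 1) :
    ∃ m : M, m ≠ 1 ∧ ∀ h ∈ H, h • m = m := by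
  classical
  obtain ⟨K, hK, hKn, hcompl⟩ := Cfsg.Agent.Lib.Helper1.FrobC.frobenius_theorem H hH
  obtain ⟨hH1, hH2, hTI⟩ := hH
  have hdisj : ∀ x, x ∈ K → x ∈ H → x = 1 := by
    intro x hxK hxH
    have := hcompl.disjoint.le_bot (show x ∈ K ⊓ H from ⟨hxK, hxH⟩)
    simpa using this
  have hfac : ∀ g : L, ∃ k ∈ K, ∃ h ∈ H, g = k * h := by
    intro g
    obtain ⟨⟨k, h⟩, hkh⟩ := hcompl.2 g
    exact ⟨k, k.2, h, h.2, hkh.symm⟩
  have hNH : ∀ g : L, MulAut.conj g • H = H → g ∈ H := by
    intro g hg
    by_contra hgH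
    have := hTI g hgH
    rw [hg, inf_idem] at this
    exact hH1 this
  have hinj : Set.InjOn (fun k : L => MulAut.conj k • H) (fs K : Set L) := by
    intro k hk k' hk' h
    simp only [Finset.mem_coe, mem_fs] at hk hk'
    have h1 : MulAut.conj (k⁻¹ * k') • H = H := by
      rw [map_mul, mul_smul, ← (show MulAut.conj k • H = MulAut.conj k' • H from h), ← mul_smul,
        ← map_mul, inv_mul_cancel, map_one, one_smul]
    have h2 := hdisj _ (K.mul_mem (K.inv_mem hk) hk') (hNH _ h1)
    exact (inv_mul_eq_one.1 h2)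
  have hKnot : K ∉ (fs K).image (fun k : L => MulAut.conj k • H) := by
    intro h
    obtain ⟨k, hk, hkK⟩ := Finset.mem_image.1 h
    apply hH1
    rw [eq_bot_iff]
    intro x hx
    have h1 : k * x * k⁻¹ ∈ K := by
      rw [← hkK, mem_conj_smul]
      simpa [mul_assoc] using hx
    have h2 : x ∈ K := by
      have := hKn.conj_mem _ h1 k⁻¹
      simpa [mul_assoc] using this
    exact Subgroup.mem_bot.2 (hdisj x h2 hx)
  set 𝒜 : Finset (Subgroup L) := insert K ((fs K).image (fun k : L => MulAut.conj k • H)) with h𝒜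
  have hcard : 𝒜.card - 1 = Nat.card (Cfsg.frobeniusKernel H) := by
    rw [h𝒜, Finset.card_insert_of_notMem hKnot, Finset.card_image_of_injOn hinj, card_fs,
      Nat.add_sub_cancel, ← hK]
    rfl
  have hpart : ∀ a : L, a ≠ 1 → ∃! B, B ∈ 𝒜 ∧ a ∈ B := by
    intro a ha
    by_cases haK : a ∈ K
    · refine ⟨K, ⟨Finset.mem_insert_self _ _, haK⟩, ?_⟩
      rintro C ⟨hC, haC⟩
      rcases Finset.mem_insert.1 hC with rfl | hC
      · rfl
      · exfalso
        obtain ⟨k, _, rfl⟩ := Finset.mem_image.1 hC
        have h1 : a ∈ Cfsg.frobeniusKernel H := by rw [← hK]; exact haK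
        rcases h1 with h1 | h1
        · exact ha h1
        · exact h1 k haC
    · have h1 : a ∉ Cfsg.frobeniusKernel H := by rw [← hK]; exact haK
      have h2 : ∃ g : L, a ∈ MulAut.conj g • H := by
        by_contra hcon
        push Not at hcon
        exact h1 (Or.inr hcon)
      obtain ⟨g, hg⟩ := h2
      obtain ⟨k, hk, h, hh, rfl⟩ := hfac g
      rw [conj_mul_smul k hh] at hg
      refine ⟨MulAut.conj k • H, ⟨Finset.mem_insert_of_mem
        (Finset.mem_image.2 ⟨k, mem_fs.2 hk, rfl⟩), hg⟩, ?_⟩
      rintro C ⟨hC, haC⟩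
      rcases Finset.mem_insert.1 hC with rfl | hC
      · exact absurd haC haK
      · obtain ⟨k', _, rfl⟩ := Finset.mem_image.1 hC
        by_cases hg' : k⁻¹ * k' ∈ H
        · have := conj_mul_smul k hg'
          rw [mul_inv_cancel_left] at this
          exact this
        · exfalso
          have h3 := hTI _ hg'
          have h4 : k⁻¹ * a * k ∈ H ⊓ MulAut.conj (k⁻¹ * k') • H := by
            refine Subgroup.mem_inf.2 ⟨mem_conj_smul.1 hg, ?_⟩
            rw [mem_conj_smul]
            have := mem_conj_smul.1 haC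
            simpa [mul_assoc] using this
          rw [h3, Subgroup.mem_bot] at h4
          apply ha
          have : a = k * (k⁻¹ * a * k) * k⁻¹ := by group
          rw [this, h4]
          group
  obtain ⟨B, hB, m, hm, hfix⟩ := exists_fixed_of_partition (M := M) 𝒜 ⟨K, Finset.mem_insert_self _ _⟩
    hpart (by rw [hcard]; exact hcop.symm)
  rcases Finset.mem_insert.1 hB with rfl | hB
  · exfalso
    apply hm
    apply hCK
    intro k hk
    apply hfix
    rw [← hK] at hk
    exact hk
  · obtain ⟨k, _, rfl⟩ := Finset.mem_image.1 hB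
    refine ⟨k⁻¹ • m, ?_, ?_⟩
    · intro h
      apply hm
      have := congrArg (fun x => k • x) h
      simpa using this
    · intro h hh
      have h1 : k * h * k⁻¹ ∈ MulAut.conj k • H := by
        rw [mem_conj_smul]
        simpa [mul_assoc] using hh
      have h2 := hfix _ h1
      calc h • k⁻¹ • m = k⁻¹ • ((k * h * k⁻¹) • m) := by
            simp only [← mul_smul]
            congr 1
            group
        _ = k⁻¹ • m := by rw [h2]

end Cfsg.Agent.Lib.Helper3.Avg
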