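import Mathlib
import Cfsg.Prelude.Def_LieExceptional

set_option autoImplicit false

namespace Cfsg.Agent.Lib.Helper3.BNPair

open Cfsg

variable {G : Type*} [Group G] (P : Cfsg.BNPair G)

/-- `g` lies in the double coset `B h B`. -/
def DC (g h : G) : Prop := ∃ b ∈ P.B, ∃ b' ∈ P.B, g = b * h * b'

variable {P}

theorem mem_dc_iff {g h : G} :
    g ∈ DoubleCoset.doubleCoset h (P.B : Set G) P.B ↔ DC P g h := by
  rw [DoubleCoset.mem_doubleCoset]; rfl

theorem DC.refl (g : G) : DC P g g := ⟨1, P.B.one_mem, 1, P.B.one_mem, by simp⟩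

theorem DC.symm {g h : G} (H : DC P g h) : DC P h g := by
  obtain ⟨b, hb, b', hb', rfl⟩ := H
  exact ⟨b⁻¹, P.B.inv_mem hb, b'⁻¹, P.B.inv_mem hb', by group⟩

theorem DC.trans {g h k : G} (H : DC P g h) (H' : DC P h k) : DC P g k := by
  obtain ⟨b, hb, b', hb', rfl⟩ := H
  obtain ⟨c, hc, c', hc', rfl⟩ := H'
  exact ⟨b * c, P.B.mul_mem hb hc, c' * b', P.B.mul_mem hc' hb', by group⟩

theorem DC.inv {g h : G} (H : DC P g h) : DC P g⁻¹ h⁻¹ := by
  obtain ⟨b, hb, b', hb', rfl⟩ := H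
  exact ⟨b'⁻¹, P.B.inv_mem hb', b⁻¹, P.B.inv_mem hb, by group⟩

theorem DC.mul_left {g h b : G} (hb : b ∈ P.B) (H : DC P g h) : DC P (b * g) h := by
  obtain ⟨c, hc, c', hc', rfl⟩ := H
  exact ⟨b * c, P.B.mul_mem hb hc, c', hc', by group⟩

theorem DC.mul_right {g h b : G} (hb : b ∈ P.B) (H : DC P g h) : DC P (g * b) h := by
  obtain ⟨c, hc, c', hc', rfl⟩ := H
  exact ⟨c, hc, c' * b, P.B.mul_mem hc' hb, by group⟩

theorem DC.of_left {g b : G} (hb : b ∈ P.B) : DC P (b * g) g := (DC.refl g).mul_left hb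

theorem DC.of_right {g b : G} (hb : b ∈ P.B) : DC P (g * b) g := (DC.refl g).mul_right hb

theorem DC.mem_B {g h : G} (H : DC P g h) (hh : h ∈ P.B) : g ∈ P.B := by
  obtain ⟨c, hc, c', hc', rfl⟩ := H
  exact P.B.mul_mem (P.B.mul_mem hc hh) hc'

theorem dc_eq_iff {g h : G} :
    DoubleCoset.doubleCoset g (P.B : Set G) P.B = DoubleCoset.doubleCoset h (P.B : Set G) P.B ↔
      DC P g h := by
  constructor
  · intro H
    rw [← mem_dc_iff, ← H]
    exact DoubleCoset.mem_doubleCoset_self _ _ _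
  · intro H
    exact DoubleCoset.doubleCoset_eq_of_mem (mem_dc_iff.2 H)

theorem S_mem_N {s : G} (hs : s ∈ P.S) : s ∈ P.N := P.subset hs

theorem conj_mem₁ {n t : G} (hn : n ∈ P.N) (ht : t ∈ P.B) (ht' : t ∈ P.N) : n * t * n⁻¹ ∈ P.B :=
  P.conj_mem n hn t ⟨ht, ht'⟩

theorem conj_mem₂ {n t : G} (hn : n ∈ P.N) (ht : t ∈ P.B) (ht' : t ∈ P.N) : n⁻¹ * t * n ∈ P.B := by
  have := P.conj_mem n⁻¹ (P.N.inv_mem hn) t ⟨ht, ht'⟩
  simpa using this

theorem t3 {s n b : G} (hs : s ∈ P.S) (hn : n ∈ P.N) (hb : b ∈ P.B) :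
    DC P (s * b * n) (s * n) ∨ DC P (s * b * n) n := by
  have := P.mul_mem_union s hs n hn b hb
  rcases this with h | h
  · exact Or.inl (mem_dc_iff.1 h)
  · exact Or.inr (mem_dc_iff.1 h)

theorem sq_inv_mem {s : G} (hs : s ∈ P.S) : (s * s)⁻¹ ∈ P.B := P.B.inv_mem (P.sq_mem s hs)

theorem t3' {s n b : G} (hs : s ∈ P.S) (hn : n ∈ P.N) (hb : b ∈ P.B) :
    DC P (s⁻¹ * b * n) (s⁻¹ * n) ∨ DC P (s⁻¹ * b * n) n := by
  have e1 : s⁻¹ * b * n = (s * s)⁻¹ * (s * b * n) := by group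
  have e2 : s⁻¹ * n = (s * s)⁻¹ * (s * n) := by group
  rcases t3 hs hn hb with h | h
  · left
    rw [e1, e2]
    exact (h.mul_left (sq_inv_mem hs)).trans (DC.of_left (sq_inv_mem hs)).symm
  · right
    rw [e1]
    exact h.mul_left (sq_inv_mem hs)

theorem t3r {s n b : G} (hs : s ∈ P.S) (hn : n ∈ P.N) (hb : b ∈ P.B) :
    DC P (n * b * s) (n * s) ∨ DC P (n * b * s) n := by
  have e1 : n * b * s = (s⁻¹ * b⁻¹ * n⁻¹)⁻¹ := by group
  have e2 : n * s = (s⁻¹ * n⁻¹)⁻¹ := by group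
  rcases t3' hs (P.N.inv_mem hn) (P.B.inv_mem hb) with h | h
  · left; rw [e1, e2]; exact h.inv
  · right; rw [e1]; simpa using h.inv

theorem t3r' {s n b : G} (hs : s ∈ P.S) (hn : n ∈ P.N) (hb : b ∈ P.B) :
    DC P (n * b * s⁻¹) (n * s⁻¹) ∨ DC P (n * b * s⁻¹) n := by
  have e1 : n * b * s⁻¹ = (s * b⁻¹ * n⁻¹)⁻¹ := by group
  have e2 : n * s⁻¹ = (s * n⁻¹)⁻¹ := by group
  rcases t3 hs (P.N.inv_mem hn) (P.B.inv_mem hb) with h | h
  · left; rw [e1, e2]; exact h.inv
  · right; rw [e1]; simpa using h.inv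

theorem exists_not_mem {s : G} (hs : s ∈ P.S) : ∃ b ∈ P.B, s * b * s ∉ P.B := by
  by_contra hcon
  push Not at hcon
  apply P.conj_ne s hs
  ext x
  constructor
  · rintro ⟨b, hb, rfl⟩
    exact hcon b hb
  · intro hx
    refine ⟨s⁻¹ * x * s⁻¹, ?_, by group⟩
    have e : s⁻¹ * x * s⁻¹ = (s * s)⁻¹ * (s * x * s) * (s * s)⁻¹ := by group
    show s⁻¹ * x * s⁻¹ ∈ P.B
    rw [e]
    exact P.B.mul_mem (P.B.mul_mem (sq_inv_mem hs) (hcon x hx)) (sq_inv_mem hs)

theorem S_not_mem_B {s : G} (hs : s ∈ P.S) : s ∉ P.B := by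
  intro h
  obtain ⟨b, hb, hb'⟩ := exists_not_mem hs
  exact hb' (P.B.mul_mem (P.B.mul_mem h hb) h)

theorem word_mem_N {L : List G} (hL : ∀ x ∈ L, x ∈ P.S) : L.prod ∈ P.N :=
  Subgroup.list_prod_mem _ (fun x hx => S_mem_N (hL x hx))

theorem unique_aux (L : List G) (hL : ∀ x ∈ L, x ∈ P.S) :
    ∀ n ∈ P.N, DC P L.prod n → L.prod⁻¹ * n ∈ P.B := by
  induction L with
  | nil =>
    intro n _ h
    have := h.symm.mem_B (by simp : ([] : List G).prod ∈ P.B)
    simpa using this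
  | cons s L1 ih =>
    intro n hn h
    have hs : s ∈ P.S := hL s (by simp)
    have hL1 : ∀ x ∈ L1, x ∈ P.S := fun x hx => hL x (by simp [hx])
    have hm : L1.prod ∈ P.N := word_mem_N hL1
    rw [List.prod_cons] at h ⊢
    obtain ⟨b, hb, b', hb', e⟩ := h
    have em : L1.prod = (s⁻¹ * b * n) * b' := by
      have : L1.prod = s⁻¹ * (s * L1.prod) := by group
      rw [this, e]; group
    rcases t3' hs hn hb with h1 | h1
    · have h2 : DC P L1.prod (s⁻¹ * n) := by rw [em]; exact h1.mul_right hb'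
      have := ih hL1 (s⁻¹ * n) (P.N.mul_mem (P.N.inv_mem (S_mem_N hs)) hn) h2
      have e3 : (s * L1.prod)⁻¹ * n = L1.prod⁻¹ * (s⁻¹ * n) := by group
      rw [e3]; exact this
    · exfalso
      have h2 : DC P L1.prod n := by rw [em]; exact h1.mul_right hb'
      have h0 : DC P (s * L1.prod) n := ⟨b, hb, b', hb', e⟩
      have h3 : DC P L1.prod (s * L1.prod) := h2.trans h0.symm
      have h4 := ih hL1 (s * L1.prod) (P.N.mul_mem (S_mem_N hs) hm) h3
      have h5 : L1.prod⁻¹ * (s * L1.prod) ∈ P.N :=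
        P.N.mul_mem (P.N.inv_mem hm) (P.N.mul_mem (S_mem_N hs) hm)
      have h6 := conj_mem₁ hm h4 h5
      apply S_not_mem_B hs
      have e4 : s = L1.prod * (L1.prod⁻¹ * (s * L1.prod)) * L1.prod⁻¹ := by group
      rw [e4]; exact h6

/-- every element of `closure X ⊔ (B ⊓ N)` is congruent mod `B ⊓ N` to a word in `X`. -/
theorem exists_word {X : Set G} (hX : X ⊆ P.S) {n : G}
    (hn : n ∈ Subgroup.closure X ⊔ (P.B ⊓ P.N)) :
    ∃ L : List G, (∀ x ∈ L, x ∈ X) ∧ L.prod⁻¹ * n ∈ P.B := by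
  have key : ∀ n ∈ Subgroup.closure (X ∪ ((P.B ⊓ P.N : Subgroup G) : Set G)),
      n ∈ P.N ∧ (∃ L : List G, (∀ x ∈ L, x ∈ X) ∧ L.prod⁻¹ * n ∈ P.B) ∧
      (∃ L : List G, (∀ x ∈ L, x ∈ X) ∧ L.prod⁻¹ * n⁻¹ ∈ P.B) := by
    intro n hn
    induction hn using Subgroup.closure_induction with
    | mem x hx =>
      rcases hx with hx | hx
      · refine ⟨S_mem_N (hX hx), ⟨[x], by simpa using hx, by simp [P.B.one_mem]⟩,
          ⟨[x], by simpa using hx, ?_⟩⟩
        have : [x].prod⁻¹ * x⁻¹ = (x * x)⁻¹ := by simp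
        rw [this]; exact sq_inv_mem (hX hx)
      · refine ⟨hx.2, ⟨[], by simp, by simpa using hx.1⟩, ⟨[], by simp, by simpa using hx.1⟩⟩
    | one => exact ⟨P.N.one_mem, ⟨[], by simp, by simp [P.B.one_mem]⟩, ⟨[], by simp, by simp [P.B.one_mem]⟩⟩
    | mul a b _ _ iha ihb =>
      obtain ⟨haN, ⟨La, hLa, ha⟩, ⟨La', hLa', ha'⟩⟩ := iha
      obtain ⟨hbN, ⟨Lb, hLb, hb⟩, ⟨Lb', hLb', hb'⟩⟩ := ihb
      have wN : ∀ L : List G, (∀ x ∈ L, x ∈ X) → L.prod ∈ P.N :=
        fun L hL => word_mem_N (fun x hx => hX (hL x hx))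
      refine ⟨P.N.mul_mem haN hbN, ⟨La ++ Lb, ?_, ?_⟩, ⟨Lb' ++ La', ?_, ?_⟩⟩
      · intro x hx
        rcases List.mem_append.1 hx with h | h
        · exact hLa x h
        · exact hLb x h
      · have e : (La ++ Lb).prod⁻¹ * (a * b) =
            (Lb.prod⁻¹ * (La.prod⁻¹ * a) * Lb.prod) * (Lb.prod⁻¹ * b) := by
          rw [List.prod_append]; group
        rw [e]
        exact P.B.mul_mem (conj_mem₂ (wN _ hLb) ha (P.N.mul_mem (P.N.inv_mem (wN _ hLa)) haN)) hb
      · intro x hx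
        rcases List.mem_append.1 hx with h | h
        · exact hLb' x h
        · exact hLa' x h
      · have e : (Lb' ++ La').prod⁻¹ * (a * b)⁻¹ =
            (La'.prod⁻¹ * (Lb'.prod⁻¹ * b⁻¹) * La'.prod) * (La'.prod⁻¹ * a⁻¹) := by
          rw [List.prod_append]; group
        rw [e]
        exact P.B.mul_mem (conj_mem₂ (wN _ hLa') hb'
          (P.N.mul_mem (P.N.inv_mem (wN _ hLb')) (P.N.inv_mem hbN))) ha'
    | inv a _ iha =>
      obtain ⟨haN, h1, h2⟩ := iha
      exact ⟨P.N.inv_mem haN, h2, by simpa using h1⟩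
  have hn' : n ∈ Subgroup.closure (X ∪ ((P.B ⊓ P.N : Subgroup G) : Set G)) := by
    rw [Subgroup.closure_union, Subgroup.closure_eq]; exact hn
  exact (key n hn').2.1

theorem exists_word_N {n : G} (hn : n ∈ P.N) :
    ∃ L : List G, (∀ x ∈ L, x ∈ P.S) ∧ L.prod⁻¹ * n ∈ P.B := by
  apply exists_word (le_refl _)
  rw [P.closure_sup]; exact hn

/-- Bruhat uniqueness. -/
theorem unique {n n' : G} (hn : n ∈ P.N) (hn' : n' ∈ P.N) (h : DC P n n') : n⁻¹ * n' ∈ P.B := by
  obtain ⟨L, hL, hLn⟩ := exists_word_N hn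
  have h1 : DC P L.prod n := by
    have : L.prod = n * (L.prod⁻¹ * n)⁻¹ := by group
    rw [this]; exact DC.of_right (P.B.inv_mem hLn)
  have h2 := unique_aux L hL n' hn' (h1.trans h)
  have e : n⁻¹ * n' = (L.prod⁻¹ * n)⁻¹ * (L.prod⁻¹ * n') := by group
  rw [e]; exact P.B.mul_mem (P.B.inv_mem hLn) h2

theorem not_dc_mul {s n : G} (hs : s ∈ P.S) (hn : n ∈ P.N) : ¬ DC P n (s * n) := by
  intro h
  have h4 := unique hn (P.N.mul_mem (S_mem_N hs) hn) h
  have h5 : n⁻¹ * (s * n) ∈ P.N := P.N.mul_mem (P.N.inv_mem hn) (P.N.mul_mem (S_mem_N hs) hn)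
  have h6 := conj_mem₁ hn h4 h5
  apply S_not_mem_B hs
  have e4 : s = n * (n⁻¹ * (s * n)) * n⁻¹ := by group
  rw [e4]; exact h6

variable (P) in
/-- `s B n` meets `B n B`. -/
def Down (s n : G) : Prop := ∃ b ∈ P.B, DC P (s * b * n) n

theorem exchange (L : List G) (hL : ∀ x ∈ L, x ∈ P.S) {s : G} (hs : s ∈ P.S)
    (h : Down P s L.prod) :
    ∃ L1 x L2, L = L1 ++ x :: L2 ∧ (s * L.prod)⁻¹ * (L1 ++ L2).prod ∈ P.B := by
  induction L using List.reverseRecOn with
  | nil =>
    exfalso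
    obtain ⟨b, hb, hd⟩ := h
    have h1 := hd.mem_B (by simp : ([] : List G).prod ∈ P.B)
    simp only [List.prod_nil, mul_one] at h1
    apply S_not_mem_B hs
    have : s = s * b * b⁻¹ := by group
    rw [this]; exact P.B.mul_mem h1 (P.B.inv_mem hb)
  | append_singleton l r ih =>
    have hr : r ∈ P.S := hL r (by simp)
    have hl : ∀ x ∈ l, x ∈ P.S := fun x hx => hL x (by simp [hx])
    have hlN : l.prod ∈ P.N := word_mem_N hl
    have hsN := S_mem_N hs
    have hrN := S_mem_N hr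
    have caseA : Down P s l.prod →
        ∃ L1 x L2, l ++ [r] = L1 ++ x :: L2 ∧ (s * (l ++ [r]).prod)⁻¹ * (L1 ++ L2).prod ∈ P.B := by
      intro hd
      obtain ⟨L1, x, L2, e, hB⟩ := ih hl hd
      refine ⟨L1, x, L2 ++ [r], by rw [e]; simp, ?_⟩
      have hw : (L1 ++ L2).prod ∈ P.N := by
        apply word_mem_N
        intro y hy
        apply hl y
        rw [e]
        rcases List.mem_append.1 hy with h | h
        · exact List.mem_append.2 (Or.inl h)
        · exact List.mem_append.2 (Or.inr (List.mem_cons_of_mem _ h))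
      have e2 : (s * (l ++ [r]).prod)⁻¹ * (L1 ++ (L2 ++ [r])).prod =
          r⁻¹ * ((s * l.prod)⁻¹ * (L1 ++ L2).prod) * r := by
        simp only [List.prod_append, List.prod_cons, List.prod_nil, mul_one]; group
      rw [e2]
      exact conj_mem₂ hrN hB (P.N.mul_mem (P.N.inv_mem (P.N.mul_mem hsN hlN)) hw)
    obtain ⟨b, hb, b1, hb1, b2, hb2, e⟩ := h
    have e' : (l ++ [r]).prod = l.prod * r := by simp
    rw [e'] at e
    have e1 : s * b * l.prod = b1 * ((l.prod * r) * b2 * r⁻¹) := by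
      have : s * b * l.prod = (s * b * (l.prod * r)) * r⁻¹ := by group
      rw [this, e]; group
    rcases t3r' hr (P.N.mul_mem hlN hrN) hb2 with h1 | h1
    · apply caseA
      refine ⟨b, hb, ?_⟩
      rw [e1]
      have : l.prod * r * r⁻¹ = l.prod := by group
      rw [this] at h1
      exact h1.mul_left hb1
    · have h2 : DC P (s * b * l.prod) (l.prod * r) := by rw [e1]; exact h1.mul_left hb1
      rcases t3 hs hlN hb with h3 | h3
      · have h4 := unique (P.N.mul_mem hsN hlN) (P.N.mul_mem hlN hrN) (h3.symm.trans h2)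
        refine ⟨l, r, [], rfl, ?_⟩
        have e2 : (s * (l ++ [r]).prod)⁻¹ * (l ++ []).prod =
            (r⁻¹ * ((s * l.prod)⁻¹ * (l.prod * r)) * r) * (r * r)⁻¹ := by
          simp only [List.prod_append, List.prod_cons, List.prod_nil, mul_one]; group
        rw [e2]
        exact P.B.mul_mem (conj_mem₂ hrN h4 (P.N.mul_mem (P.N.inv_mem (P.N.mul_mem hsN hlN))
          (P.N.mul_mem hlN hrN))) (sq_inv_mem hr)
      · exact caseA ⟨b, hb, h3⟩

theorem not_up_up {s n : G} (hs : s ∈ P.S) (hn : n ∈ P.N)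
    (h1 : ∀ b ∈ P.B, DC P (s * b * n) (s * n))
    (h2 : ∀ b ∈ P.B, DC P (s * b * (s * n)) (s * (s * n))) : False := by
  obtain ⟨b0, hb0, hb0'⟩ := exists_not_mem hs
  rcases t3 hs (S_mem_N hs) hb0 with h | h
  · exact hb0' (h.mem_B (P.sq_mem s hs))
  · obtain ⟨b1, hb1, b2, hb2, e⟩ := h
    have e1 : s * b0 * (s * n) = b1 * (s * b2 * n) := by
      have : s * b0 * (s * n) = (s * b0 * s) * n := by group
      rw [this, e]; group
    have h3 := h2 b0 hb0
    rw [e1] at h3
    have h4 : DC P (s * (s * n)) n := by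
      have : s * (s * n) = (s * s) * n := by group
      rw [this]; exact DC.of_left (P.sq_mem s hs)
    have h5 : DC P (b1 * (s * b2 * n)) (s * n) := (h1 b2 hb2).mul_left hb1
    exact not_dc_mul hs hn ((h3.trans h4).symm.trans h5)

/-- A word in `X` of minimal length among the words in `X` in its class. -/
def Red (P : Cfsg.BNPair G) (X : Set G) (L : List G) : Prop :=
  (∀ x ∈ L, x ∈ X) ∧ ∀ L' : List G, (∀ x ∈ L', x ∈ X) → L'.prod⁻¹ * L.prod ∈ P.B →
    L.length ≤ L'.length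

theorem down_of_red {X : Set G} (hX : X ⊆ P.S) {s : G} {L1 : List G} (h : Red P X (s :: L1)) :
    Down P s (s :: L1).prod := by
  have hsX : s ∈ X := h.1 s (by simp)
  have hs : s ∈ P.S := hX hsX
  have hL1X : ∀ x ∈ L1, x ∈ X := fun x hx => h.1 x (by simp [hx])
  have hL1 : ∀ x ∈ L1, x ∈ P.S := fun x hx => hX (hL1X x hx)
  have hm : L1.prod ∈ P.N := word_mem_N hL1
  rw [List.prod_cons]
  by_contra hcon
  have up2 : ∀ b ∈ P.B, DC P (s * b * (s * L1.prod)) (s * (s * L1.prod)) := by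
    intro b hb
    rcases t3 hs (P.N.mul_mem (S_mem_N hs) hm) hb with h1 | h1
    · exact h1
    · exact absurd ⟨b, hb, h1⟩ hcon
  have : ¬ ∀ b ∈ P.B, DC P (s * b * L1.prod) (s * L1.prod) := fun h1 => not_up_up hs hm h1 up2
  push Not at this
  obtain ⟨b, hb, hb'⟩ := this
  have hd : Down P s L1.prod := by
    rcases t3 hs hm hb with h1 | h1
    · exact absurd h1 hb'
    · exact ⟨b, hb, h1⟩
  obtain ⟨A, x, C, e, hB⟩ := exchange L1 hL1 hs hd
  have hAC : ∀ y ∈ A ++ C, y ∈ X := by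
    intro y hy
    apply hL1X y
    rw [e]
    rcases List.mem_append.1 hy with h | h
    · exact List.mem_append.2 (Or.inl h)
    · exact List.mem_append.2 (Or.inr (List.mem_cons_of_mem _ h))
  have h3 := h.2 (A ++ C) hAC (by
    rw [List.prod_cons]
    have : (A ++ C).prod⁻¹ * (s * L1.prod) = ((s * L1.prod)⁻¹ * (A ++ C).prod)⁻¹ := by group
    rw [this]; exact P.B.inv_mem hB)
  rw [e] at h3
  simp at h3

theorem red_tail {X : Set G} {s : G} {L1 : List G} (h : Red P X (s :: L1)) : Red P X L1 := by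
  refine ⟨fun x hx => h.1 x (by simp [hx]), fun L' hL' hB => ?_⟩
  have := h.2 (s :: L') (by
    intro x hx
    rcases List.mem_cons.1 hx with rfl | hx
    · exact h.1 _ (by simp)
    · exact hL' x hx) (by
    have : (s :: L').prod⁻¹ * (s :: L1).prod = L'.prod⁻¹ * L1.prod := by
      simp only [List.prod_cons]; group
    rw [this]; exact hB)
  simpa using this

theorem exists_red {X : Set G} {n : G}
    (h : ∃ L : List G, (∀ x ∈ L, x ∈ X) ∧ L.prod⁻¹ * n ∈ P.B) :
    ∃ L : List G, Red P X L ∧ L.prod⁻¹ * n ∈ P.B := by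
  classical
  have h' : ∃ k : ℕ, ∃ L : List G, L.length = k ∧ (∀ x ∈ L, x ∈ X) ∧ L.prod⁻¹ * n ∈ P.B := by
    obtain ⟨L, h1, h2⟩ := h
    exact ⟨L.length, L, rfl, h1, h2⟩
  obtain ⟨L, hk, h1, h2⟩ := Nat.find_spec h'
  refine ⟨L, ⟨h1, fun L' hL' hB => ?_⟩, h2⟩
  rw [hk]
  apply Nat.find_min' h'
  refine ⟨L', rfl, hL', ?_⟩
  have : L'.prod⁻¹ * n = (L'.prod⁻¹ * L.prod) * (L.prod⁻¹ * n) := by group
  rw [this]; exact P.B.mul_mem hB h2

/-- The letters of a reduced word `L` lie in every subgroup containing `B` and `L.prod B L.prod⁻¹`. -/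
theorem letters_mem {X : Set G} (hX : X ⊆ P.S) (M : Subgroup G) (hM : P.B ≤ M) (L : List G)
    (hL : Red P X L) (hc : ∀ b ∈ P.B, L.prod * b * L.prod⁻¹ ∈ M) : ∀ x ∈ L, x ∈ M := by
  induction L with
  | nil => simp
  | cons s L1 ih =>
    obtain ⟨b, hb, b1, hb1, b2, hb2, e⟩ := down_of_red hX hL
    have hsM : s ∈ M := by
      have : s = b1 * ((s :: L1).prod * b2 * (s :: L1).prod⁻¹) * b⁻¹ := by
        have e2 : s = (s * b * (s :: L1).prod) * (s :: L1).prod⁻¹ * b⁻¹ := by group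
        conv_lhs => rw [e2, e]
        group
      rw [this]
      exact M.mul_mem (M.mul_mem (hM hb1) (hc b2 hb2)) (M.inv_mem (hM hb))
    have ih' := ih (red_tail hL) (by
      intro c hc'
      have : L1.prod * c * L1.prod⁻¹ = s⁻¹ * ((s :: L1).prod * c * (s :: L1).prod⁻¹) * s := by
        simp only [List.prod_cons]; group
      rw [this]
      exact M.mul_mem (M.mul_mem (M.inv_mem hsM) (hc c hc')) hsM)
    intro x hx
    rcases List.mem_cons.1 hx with rfl | hx
    · exact hsM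
    · exact ih' x hx


theorem closure_le_N {J : Set G} (hJ : J ⊆ P.S) : Subgroup.closure J ≤ P.N :=
  (Subgroup.closure_le _).2 (fun _ hx => S_mem_N (hJ hx))

theorem B_le_parabolic (J : Set G) : P.B ≤ P.parabolic J := le_sup_left

theorem closure_le_parabolic (J : Set G) : Subgroup.closure J ≤ P.parabolic J := le_sup_right

theorem mem_parabolic_of_mem {J : Set G} {x : G} (hx : x ∈ J) : x ∈ P.parabolic J :=
  closure_le_parabolic J (Subgroup.subset_closure hx)

theorem parabolic_mem_iff {J : Set G} (hJ : J ⊆ P.S) (g : G) :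
    g ∈ P.parabolic J ↔ ∃ n ∈ Subgroup.closure J, DC P g n := by
  constructor
  · intro hg
    have key : ∀ g ∈ Subgroup.closure ((P.B : Set G) ∪ J),
        (∀ u, (∃ n ∈ Subgroup.closure J, DC P u n) → ∃ n ∈ Subgroup.closure J, DC P (g * u) n) ∧
        (∀ u, (∃ n ∈ Subgroup.closure J, DC P u n) → ∃ n ∈ Subgroup.closure J, DC P (g⁻¹ * u) n) := by
      intro g hg
      induction hg using Subgroup.closure_induction with
      | mem x hx =>
        rcases hx with hx | hx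
        · constructor
          · rintro u ⟨n, hn, h⟩
            exact ⟨n, hn, h.mul_left hx⟩
          · rintro u ⟨n, hn, h⟩
            exact ⟨n, hn, h.mul_left (P.B.inv_mem hx)⟩
        · have hxc : x ∈ Subgroup.closure J := Subgroup.subset_closure hx
          constructor
          · rintro u ⟨n, hn, b, hb, b', hb', rfl⟩
            have e : x * (b * n * b') = (x * b * n) * b' := by group
            rw [e]
            rcases t3 (hJ hx) (closure_le_N hJ hn) hb with h | h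
            · exact ⟨x * n, Subgroup.mul_mem _ hxc hn, h.mul_right hb'⟩
            · exact ⟨n, hn, h.mul_right hb'⟩
          · rintro u ⟨n, hn, b, hb, b', hb', rfl⟩
            have e : x⁻¹ * (b * n * b') = (x⁻¹ * b * n) * b' := by group
            rw [e]
            rcases t3' (hJ hx) (closure_le_N hJ hn) hb with h | h
            · exact ⟨x⁻¹ * n, Subgroup.mul_mem _ (Subgroup.inv_mem _ hxc) hn, h.mul_right hb'⟩
            · exact ⟨n, hn, h.mul_right hb'⟩
      | one => simp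
      | mul a b _ _ iha ihb =>
        constructor
        · intro u hu
          rw [mul_assoc]
          exact iha.1 _ (ihb.1 _ hu)
        · intro u hu
          rw [mul_inv_rev, mul_assoc]
          exact ihb.2 _ (iha.2 _ hu)
      | inv a _ iha =>
        exact ⟨iha.2, by simpa using iha.1⟩
    have hg' : g ∈ Subgroup.closure ((P.B : Set G) ∪ J) := by
      rw [Subgroup.closure_union, Subgroup.closure_eq]; exact hg
    have := (key g hg').1 1 ⟨1, Subgroup.one_mem _, DC.refl 1⟩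
    simpa using this
  · rintro ⟨n, hn, b, hb, b', hb', rfl⟩
    exact Subgroup.mul_mem _ (Subgroup.mul_mem _ (B_le_parabolic J hb) (closure_le_parabolic J hn))
      (B_le_parabolic J hb')

theorem parabolic_S : P.parabolic P.S = ⊤ := by
  rw [eq_top_iff, ← P.sup_eq_top, sup_le_iff]
  refine ⟨B_le_parabolic _, ?_⟩
  conv_lhs => rw [← P.closure_sup]
  rw [sup_le_iff]
  exact ⟨closure_le_parabolic _, inf_le_left.trans (B_le_parabolic _)⟩

/-- Bruhat decomposition, existence. -/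
theorem bruhat (g : G) : ∃ n ∈ P.N, DC P g n := by
  have hg : g ∈ P.parabolic P.S := by rw [parabolic_S]; trivial
  obtain ⟨n, hn, h⟩ := (parabolic_mem_iff (le_refl _) g).1 hg
  exact ⟨n, closure_le_N (le_refl _) hn, h⟩

/-- Bruhat decomposition with a reduced word. -/
theorem bruhat_red (g : G) : ∃ L : List G, Red P P.S L ∧ DC P g L.prod := by
  obtain ⟨n, hn, h⟩ := bruhat (P := P) g
  obtain ⟨L, hL, hB⟩ := exists_red (exists_word_N hn)
  refine ⟨L, hL, h.trans ?_⟩
  have : n = L.prod * (L.prod⁻¹ * n) := by group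
  rw [this]; exact DC.of_right hB

theorem prod_mem_closure {L : List G} {J : Set G} (h : ∀ x ∈ L, x ∈ J) :
    L.prod ∈ Subgroup.closure J :=
  Subgroup.list_prod_mem _ (fun x hx => Subgroup.subset_closure (h x hx))

/-- If `M ≥ B` and `g B g⁻¹ ≤ M` then `g` lies in the parabolic generated by `S ∩ M`. -/
theorem mem_parabolic_of_conj (M : Subgroup G) (hM : P.B ≤ M) {g : G}
    (hg : ∀ b ∈ P.B, g * b * g⁻¹ ∈ M) : g ∈ P.parabolic (P.S ∩ M) := by
  obtain ⟨L, hL, b1, hb1, b2, hb2, rfl⟩ := bruhat_red (P := P) g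
  have hlet := letters_mem (le_refl _) M hM L hL (by
    intro b hb
    have e : L.prod * b * L.prod⁻¹ =
        b1⁻¹ * ((b1 * L.prod * b2) * (b2⁻¹ * b * b2) * (b1 * L.prod * b2)⁻¹) * b1 := by group
    rw [e]
    exact M.mul_mem (M.mul_mem (M.inv_mem (hM hb1))
      (hg _ (P.B.mul_mem (P.B.mul_mem (P.B.inv_mem hb2) hb) hb2))) (hM hb1))
  have : L.prod ∈ Subgroup.closure (P.S ∩ M) :=
    prod_mem_closure (fun x hx => ⟨hL.1 x hx, hlet x hx⟩)
  exact Subgroup.mul_mem _ (Subgroup.mul_mem _ (B_le_parabolic _ hb1) (closure_le_parabolic _ this))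
    (B_le_parabolic _ hb2)

theorem parabolic_inter_le (M : Subgroup G) (hM : P.B ≤ M) : P.parabolic (P.S ∩ M) ≤ M := by
  refine sup_le hM ((Subgroup.closure_le _).2 (fun x hx => hx.2))

/-- Every subgroup containing `B` is parabolic. -/
theorem eq_parabolic (M : Subgroup G) (hM : P.B ≤ M) : M = P.parabolic (P.S ∩ M) := by
  apply le_antisymm _ (parabolic_inter_le M hM)
  intro g hg
  exact mem_parabolic_of_conj M hM (fun b hb => M.mul_mem (M.mul_mem hg (hM hb)) (M.inv_mem hg))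

/-- `S ∩ P_J = J`. -/
theorem mem_of_mem_parabolic {J : Set G} (hJ : J ⊆ P.S) {s : G} (hs : s ∈ P.S)
    (h : s ∈ P.parabolic J) : s ∈ J := by
  obtain ⟨n, hn, hd⟩ := (parabolic_mem_iff hJ s).1 h
  have h1 := unique (S_mem_N hs) (closure_le_N hJ hn) hd
  obtain ⟨L, hL, hB⟩ := exists_red (exists_word hJ (Subgroup.mem_sup_left hn : n ∈ _ ⊔ (P.B ⊓ P.N)))
  have h2 : L.prod⁻¹ * s ∈ P.B := by
    have : L.prod⁻¹ * s = (L.prod⁻¹ * n) * (s⁻¹ * n)⁻¹ := by group
    rw [this]; exact P.B.mul_mem hB (P.B.inv_mem h1)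
  cases L with
  | nil => exact absurd (by simpa using h2) (S_not_mem_B hs)
  | cons x L1 =>
    have hxJ : x ∈ J := hL.1 x (by simp)
    obtain ⟨b, hb, hd2⟩ := down_of_red hJ hL
    have hds : DC P s (x :: L1).prod := by
      have : s = (x :: L1).prod * ((x :: L1).prod⁻¹ * s) := by group
      rw [this]; exact DC.of_right h2
    have hdown : Down P x [s].prod := by
      refine ⟨b, hb, ?_⟩
      have e : x * b * [s].prod = (x * b * (x :: L1).prod) * ((x :: L1).prod⁻¹ * s) := by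
        simp only [List.prod_cons, List.prod_nil, mul_one]; group
      rw [e]
      have : [s].prod = s := by simp
      rw [this]
      exact (hd2.mul_right h2).trans hds.symm
    obtain ⟨A, y, C, e, hB2⟩ := exchange [s] (by simpa using hs) (hJ hxJ) hdown
    have hAC : A = [] ∧ C = [] := by
      cases A with
      | nil => simp at e; exact ⟨rfl, e.2⟩
      | cons a A => simp at e
    obtain ⟨rfl, rfl⟩ := hAC
    simp only [List.prod_cons, List.prod_nil, mul_one, List.append_nil] at hB2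
    have h3 : x⁻¹ * s ∈ P.B := by
      have : x⁻¹ * s = (x * x)⁻¹ * ((x * s)⁻¹)⁻¹ := by group
      rw [this]; exact P.B.mul_mem (sq_inv_mem (hJ hxJ)) (P.B.inv_mem hB2)
    have := P.inj x (hJ hxJ) s hs h3
    rw [← this]; exact hxJ

theorem parabolic_mono {J K : Set G} (h : J ⊆ K) : P.parabolic J ≤ P.parabolic K :=
  sup_le_sup_left (Subgroup.closure_mono h) _

theorem parabolic_le_iff {J K : Set G} (hJ : J ⊆ P.S) (hK : K ⊆ P.S) :
    P.parabolic J ≤ P.parabolic K ↔ J ⊆ K :=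
  ⟨fun h _ hx => mem_of_mem_parabolic hK (hJ hx) (h (mem_parabolic_of_mem hx)), parabolic_mono⟩

theorem S_inter_parabolic {J : Set G} (hJ : J ⊆ P.S) : P.S ∩ (P.parabolic J : Set G) = J := by
  ext x
  constructor
  · rintro ⟨h1, h2⟩; exact mem_of_mem_parabolic hJ h1 h2
  · intro hx; exact ⟨hJ hx, mem_parabolic_of_mem hx⟩

/-- If `g B g⁻¹ ≤ P_J` then `g ∈ P_J`. -/
theorem mem_parabolic_of_conj' {J : Set G} (hJ : J ⊆ P.S) {g : G}
    (hg : ∀ b ∈ P.B, g * b * g⁻¹ ∈ P.parabolic J) : g ∈ P.parabolic J := by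
  have := mem_parabolic_of_conj (P.parabolic J) (B_le_parabolic J) hg
  rwa [S_inter_parabolic hJ] at this


theorem parabolic_empty : P.parabolic ∅ = P.B := by
  simp [Cfsg.BNPair.parabolic]

theorem word_singleton {s : G} (hs : s ∈ P.S) (L : List G) (hL : ∀ x ∈ L, x ∈ ({s} : Set G)) :
    L.prod ∈ P.B ∨ s⁻¹ * L.prod ∈ P.B := by
  induction L with
  | nil => left; simp [P.B.one_mem]
  | cons x L1 ih =>
    have hx : x = s := hL x (by simp)
    subst hx
    rcases ih (fun y hy => hL y (by simp [hy])) with h | h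
    · right; simpa using h
    · left
      have : (x :: L1).prod = (x * x) * (x⁻¹ * L1.prod) := by simp only [List.prod_cons]; group
      rw [this]; exact P.B.mul_mem (P.sq_mem x hs) h

theorem parabolic_singleton {s : G} (hs : s ∈ P.S) (g : G) :
    g ∈ P.parabolic {s} ↔ g ∈ P.B ∨ DC P g s := by
  have hJ : ({s} : Set G) ⊆ P.S := by simpa using hs
  constructor
  · intro hg
    obtain ⟨n, hn, hd⟩ := (parabolic_mem_iff hJ g).1 hg
    obtain ⟨L, hL, hB⟩ := exists_word hJ (Subgroup.mem_sup_left hn : n ∈ _ ⊔ (P.B ⊓ P.N))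
    rcases word_singleton hs L hL with h | h
    · left
      apply hd.mem_B
      have : n = L.prod * (L.prod⁻¹ * n) := by group
      rw [this]; exact P.B.mul_mem h hB
    · right
      apply hd.trans
      have : n = s * ((s⁻¹ * L.prod) * (L.prod⁻¹ * n)) := by group
      rw [this]; exact DC.of_right (P.B.mul_mem h hB)
  · rintro (h | h)
    · exact B_le_parabolic _ h
    · exact (parabolic_mem_iff hJ g).2 ⟨s, Subgroup.subset_closure rfl, h⟩

end Cfsg.Agent.Lib.Helper3.BNPair
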