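import Cfsg.Agent.Lib.Helper3.Index2
import Cfsg.Agent.S0237
import Cfsg.Agent.S0238

set_option autoImplicit false

namespace Cfsg.Agent.Lib.Helper3.BrauerFowler

open Cfsg.Agent.Lib.Helper3.Invol

variable {G : Type*} [Group G]

/-- number of involutions -/
noncomputable abbrev mInv (G : Type*) [Group G] : ℕ := Nat.card {t : G // orderOf t = 2}

/-- number of ways of writing `x` as a product of two involutions -/
noncomputable abbrev aInv (x : G) : ℕ :=
  Nat.card {p : G × G // orderOf p.1 = 2 ∧ orderOf p.2 = 2 ∧ p.1 * p.2 = x}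

theorem sum_aInv [Fintype G] : ∑ x : G, aInv x = mInv G ^ 2 := by
  classical
  have h := Finset.card_eq_sum_card_fiberwise (f := fun p : G × G => p.1 * p.2)
    (s := (Finset.univ.filter (fun t : G => orderOf t = 2)) ×ˢ
      (Finset.univ.filter (fun t : G => orderOf t = 2))) (t := Finset.univ)
    (fun _ _ => Finset.mem_coe.2 (Finset.mem_univ _))
  rw [Finset.card_product] at h
  have hm : mInv G = (Finset.univ.filter (fun t : G => orderOf t = 2)).card := by
    rw [mInv, Nat.card_eq_fintype_card, Fintype.card_subtype]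
  rw [hm, pow_two, h]
  refine Finset.sum_congr rfl fun x _ => ?_
  rw [aInv, Nat.card_eq_fintype_card, Fintype.card_subtype]
  congr 1
  ext p
  simp [and_assoc]

theorem aInv_one : aInv (1 : G) = mInv G := by
  refine Nat.card_congr ⟨fun p => ⟨p.1.1, p.2.1⟩, fun t => ⟨(t.1, t.1), t.2, t.2, sq_of_order t.2⟩,
    ?_, ?_⟩
  · rintro ⟨⟨s, t⟩, hs, ht, hst⟩
    simp only [Subtype.mk.injEq, Prod.mk.injEq, true_and]
    have hs' : orderOf s = 2 := hs
    have hst' : s * t = 1 := hst
    rw [← inv_of_order hs']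
    exact (eq_inv_of_mul_eq_one_right hst').symm
  · rintro ⟨t, ht⟩
    rfl

/-- the extended centralizer -/
def Cstar (x : G) : Subgroup G where
  carrier := {g | g * x * g⁻¹ = x ∨ g * x * g⁻¹ = x⁻¹}
  one_mem' := Or.inl (by simp)
  mul_mem' := by
    intro a b ha hb
    have e : a * b * x * (a * b)⁻¹ = a * (b * x * b⁻¹) * a⁻¹ := by group
    have hinv : ∀ c : G, c * x⁻¹ * c⁻¹ = (c * x * c⁻¹)⁻¹ := by intro c; group
    simp only [Set.mem_ofPred_eq] at ha hb ⊢
    rw [e]
    rcases hb with hb | hb <;> rcases ha with ha | ha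
    · left; rw [hb, ha]
    · right; rw [hb, ha]
    · right; rw [hb, hinv, ha]
    · left; rw [hb, hinv, ha, inv_inv]
  inv_mem' := by
    intro a ha
    simp only [Set.mem_ofPred_eq] at ha ⊢
    rcases ha with ha | ha
    · left
      nth_rewrite 1 [← ha]
      group
    · right
      have : x = a⁻¹ * x⁻¹ * a := by rw [← ha]; group
      have h2 : x⁻¹ = a⁻¹ * x * a := by
        nth_rewrite 1 [this]
        group
      rw [inv_inv, ← h2]

theorem card_Cstar [Finite G] {x : G} (hreal : IsConj x x⁻¹) (hx : x * x ≠ 1) :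
    Nat.card (Cstar x) = 2 * Nat.card (Subgroup.centralizer ({x} : Set G)) := by
  classical
  have h1 : Nat.card (Cstar x) =
      Nat.card {g : G // g * x * g⁻¹ = x} + Nat.card {g : G // g * x * g⁻¹ = x⁻¹} := by
    rw [← Nat.card_sum]
    refine Nat.card_congr (subtypeOrEquiv _ _ ?_)
    intro r h1 h2 g hg
    have e1 := h1 g hg
    have e2 := h2 g hg
    apply hx
    have : x = x⁻¹ := e1.symm.trans e2
    nth_rewrite 1 [this]
    simp
  have h2 : Nat.card {g : G // g * x * g⁻¹ = x} =
      Nat.card (Subgroup.centralizer ({x} : Set G)) := by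
    refine Nat.card_congr (Equiv.subtypeEquivRight fun g => ?_)
    rw [Subgroup.mem_centralizer_singleton_iff]
    exact mul_inv_eq_iff_eq_mul
  rw [h1, h2, Cfsg.Agent.S0237.result x hreal, two_mul]

theorem bf_main [Finite G] (M : ℕ) (hM : ∀ H : Subgroup G, H ≠ ⊤ → Nat.card H ≤ M)
    (hno2 : ∀ H : Subgroup G, H.index ≠ 2)
    (hnc : ∀ t : G, orderOf t = 2 → t ∉ Subgroup.center G) :
    2 * mInv G ^ 2 + 2 * mInv G + M ≤ Nat.card G * M + mInv G * M := by
  classical
  have : Fintype G := Fintype.ofFinite G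
  have hpt : ∀ x : G, (2 * (aInv x : ℤ) + (if orderOf x = 2 then 4 else 0)) ≤
      (M : ℤ) + (if x = 1 then (2 * (mInv G : ℤ) - M) else 0) + (if orderOf x = 2 then (M : ℤ) else 0) := by
    intro x
    by_cases h1 : x = 1
    · subst h1
      have h12 : orderOf (1 : G) ≠ 2 := by simp
      rw [if_neg h12, if_pos rfl, if_neg h12, aInv_one]
      linarith
    by_cases h2 : orderOf x = 2
    · simp only [h1, h2, if_true, if_false]
      have hC : Subgroup.centralizer ({x} : Set G) ≠ ⊤ := by
        intro h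
        apply hnc x h2
        rw [Subgroup.mem_center_iff]
        intro g
        have : g ∈ Subgroup.centralizer ({x} : Set G) := by rw [h]; trivial
        exact Subgroup.mem_centralizer_singleton_iff.1 this
      have h3 := (Cfsg.Agent.S0238.result x).2.2 h2
      have h4 := hM _ hC
      have h5 : aInv x + 2 ≤ M := h3.trans h4
      have h6 : ((aInv x : ℤ) + 2 ≤ M) := by exact_mod_cast h5
      linarith
    · simp only [h1, h2, if_false]
      by_cases h0 : aInv x = 0
      · rw [h0]; simp
      have hreal : IsConj x x⁻¹ := by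
        by_contra hn
        exact h0 ((Cfsg.Agent.S0238.result x).2.1 hn)
      have hxx : x * x ≠ 1 := fun h => h2 (order_two_iff.2 ⟨h1, h⟩)
      have hcs := card_Cstar hreal hxx
      have hCs : Cstar x ≠ ⊤ := by
        intro h
        apply hno2 (Subgroup.centralizer ({x} : Set G))
        have h3 := (Subgroup.centralizer ({x} : Set G)).card_mul_index
        rw [h, Subgroup.card_top] at hcs
        rw [hcs, mul_comm] at h3
        exact Nat.eq_of_mul_eq_mul_right Nat.card_pos h3
      have h3 := (Cfsg.Agent.S0238.result x).1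
      have h4 := hM _ hCs
      rw [hcs] at h4
      have h5 : 2 * aInv x ≤ M := (Nat.mul_le_mul_left 2 h3).trans h4
      have h6 : (2 * (aInv x : ℤ) ≤ M) := by exact_mod_cast h5
      linarith
  have hsum := Finset.sum_le_sum (fun x (_ : x ∈ (Finset.univ : Finset G)) => hpt x)
  have hm : ((Finset.univ.filter (fun t : G => orderOf t = 2)).card : ℤ) = mInv G := by
    rw [mInv, Nat.card_eq_fintype_card, Fintype.card_subtype]
  have hs1 : ∑ x : G, (aInv x : ℤ) = (mInv G : ℤ) ^ 2 := by
    exact_mod_cast sum_aInv (G := G)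
  have h11 : (Finset.univ.filter (fun x : G => x = 1)).card = 1 := by
    rw [Finset.card_eq_one]
    exact ⟨1, by ext x; simp⟩
  simp only [Finset.sum_add_distrib, ← Finset.mul_sum, hs1, Finset.sum_ite, Finset.sum_const,
    nsmul_eq_mul, hm, Finset.card_univ, h11, mul_zero, add_zero, Nat.cast_one, one_mul] at hsum
  rw [← Nat.card_eq_fintype_card] at hsum
  have : (2 * (mInv G : ℤ) ^ 2 + 2 * mInv G + M ≤ Nat.card G * M + mInv G * M) := by
    linarith
  exact_mod_cast this

theorem exists_max_proper [Finite G] [Nontrivial G] :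
    ∃ H : Subgroup G, H ≠ ⊤ ∧ ∀ K : Subgroup G, K ≠ ⊤ → Nat.card K ≤ Nat.card H := by
  have : Nonempty {H : Subgroup G // H ≠ ⊤} := ⟨⟨⊥, bot_ne_top⟩⟩
  obtain ⟨⟨H, hH⟩, hmax⟩ := Finite.exists_max (fun H : {H : Subgroup G // H ≠ ⊤} => Nat.card H.1)
  exact ⟨H, hH, fun K hK => hmax ⟨K, hK⟩⟩

theorem card_le_factorial_index [Finite G] [IsSimpleGroup G] {H : Subgroup G} (hH : H ≠ ⊤) :
    Nat.card G ≤ (H.index).factorial := by
  classical
  have hker : (MulAction.toPermHom G (G ⧸ H)).ker = ⊥ := by
    rcases (MulAction.toPermHom G (G ⧸ H)).normal_ker.eq_bot_or_eq_top with h | h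
    · exact h
    · exfalso
      apply hH
      rw [eq_top_iff]
      intro g _
      have hg : g ∈ (MulAction.toPermHom G (G ⧸ H)).ker := by rw [h]; trivial
      have h1 : MulAction.toPermHom G (G ⧸ H) g = 1 := hg
      have h2 : g • (QuotientGroup.mk 1 : G ⧸ H) = QuotientGroup.mk 1 := by
        have := congrArg (fun σ : Equiv.Perm (G ⧸ H) => σ (QuotientGroup.mk 1)) h1
        exact this
      rw [MulAction.Quotient.smul_mk, eq_comm, QuotientGroup.eq, smul_eq_mul, inv_one, one_mul,
        mul_one] at h2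
      exact h2
  have hinj : Function.Injective (MulAction.toPermHom G (G ⧸ H)) :=
    (MonoidHom.ker_eq_bot_iff _).1 hker
  have h1 := Nat.card_le_card_of_injective _ hinj
  have : Fintype (G ⧸ H) := Fintype.ofFinite _
  rw [Nat.card_eq_fintype_card (α := Equiv.Perm (G ⧸ H)), Fintype.card_perm,
    ← Nat.card_eq_fintype_card] at h1
  exact h1

theorem card_le_mInv_mul [Finite G] {t : G} (ht : orderOf t = 2) :
    Nat.card G ≤ mInv G * Nat.card (Subgroup.centralizer ({t} : Set G)) := by
  rw [← card_class_mul t]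
  apply Nat.mul_le_mul_right
  refine Nat.card_le_card_of_injective
    (fun y : {y : G // IsConj t y} => (⟨y.1, ?_⟩ : {t : G // orderOf t = 2})) ?_
  · obtain ⟨g, hg⟩ := isConj_iff.1 y.2
    rw [← hg, order_conj, ht]
  · intro a b h
    have h' : a.1 = b.1 := congrArg (fun z : {t : G // orderOf t = 2} => z.1) h
    exact Subtype.ext h'

theorem bf_index [Finite G] [Nontrivial G] (hno2 : ∀ H : Subgroup G, H.index ≠ 2)
    (hnc : ∀ t : G, orderOf t = 2 → t ∉ Subgroup.center G) :
    ∃ H : Subgroup G, H ≠ ⊤ ∧ (∀ K : Subgroup G, K ≠ ⊤ → Nat.card K ≤ Nat.card H) ∧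
      2 * H.index * mInv G ^ 2 + 2 * H.index * mInv G + Nat.card G ≤
        Nat.card G * Nat.card G + mInv G * Nat.card G := by
  obtain ⟨H, hH, hmax⟩ := exists_max_proper (G := G)
  refine ⟨H, hH, hmax, ?_⟩
  have h := bf_main (Nat.card H) hmax hno2 hnc
  have hi := H.card_mul_index
  calc 2 * H.index * mInv G ^ 2 + 2 * H.index * mInv G + Nat.card G
      = (2 * mInv G ^ 2 + 2 * mInv G + Nat.card H) * H.index := by rw [← hi]; ring
    _ ≤ (Nat.card G * Nat.card H + mInv G * Nat.card H) * H.index := Nat.mul_le_mul_right _ h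
    _ = Nat.card G * (Nat.card H * H.index) + mInv G * (Nat.card H * H.index) := by ring
    _ = Nat.card G * Nat.card G + mInv G * Nat.card G := by rw [hi]

universe u

theorem bf_cube : ∀ (n : ℕ) (G : Type u) [Group G] [Finite G], Nat.card G = n → Even n → 2 < n →
    ∃ H : Subgroup G, H ≠ ⊤ ∧ n < Nat.card H ^ 3 := by
  intro n
  induction n using Nat.strong_induction_on with
  | _ n ih =>
  intro G _ _ hn heven hgt
  by_cases h2 : ∃ H : Subgroup G, H.index = 2
  · obtain ⟨H, hH⟩ := h2
    refine ⟨H, by rintro rfl; simp at hH, ?_⟩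
    have h1 := H.card_mul_index
    rw [hH, hn] at h1
    have hk : 2 ≤ Nat.card H := by omega
    rw [← h1]
    nlinarith [Nat.mul_le_mul hk hk]
  push Not at h2
  have hnt : Nontrivial G := by
    rw [← Finite.one_lt_card_iff_nontrivial, hn]; omega
  by_cases hc : ∃ z : G, orderOf z = 2 ∧ z ∈ Subgroup.center G
  · obtain ⟨z, hz, hzc⟩ := hc
    have hZn : (Subgroup.zpowers z).Normal := by
      constructor
      intro x hx g
      obtain ⟨i, rfl⟩ := Subgroup.mem_zpowers_iff.1 hx
      have : g * z ^ i * g⁻¹ = z ^ i := by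
        have h3 : z ^ i ∈ Subgroup.center G := zpow_mem hzc i
        rw [Subgroup.mem_center_iff] at h3
        rw [h3 g, mul_assoc, mul_inv_cancel, mul_one]
      rw [this]
      exact Subgroup.zpow_mem_zpowers _ _
    have hZc : Nat.card (Subgroup.zpowers z) = 2 := by rw [Nat.card_zpowers, hz]
    have hq := Subgroup.card_eq_card_quotient_mul_card_subgroup (Subgroup.zpowers z)
    rw [hZc, hn] at hq
    set k := Nat.card (G ⧸ Subgroup.zpowers z) with hk
    have hkidx : (Subgroup.zpowers z).index = k := rfl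
    have hk2 : k ≠ 2 := fun h => h2 _ (hkidx.trans h)
    have hkeven : Even k := by
      by_contra hodd
      have hZp : IsPGroup 2 (Subgroup.zpowers z) := IsPGroup.of_card (n := 1) (by rw [hZc, pow_one])
      have hnd : ¬ 2 ∣ (Subgroup.zpowers z).index := by
        rw [hkidx]
        intro h
        exact hodd (even_iff_two_dvd.2 h)
      obtain ⟨H, hH⟩ := exists_index_two_of_cyclic_sylow (hn ▸ heven) (hZp.toSylow hnd) (by
        rw [IsPGroup.toSylow_coe]
        infer_instance)
      exact h2 H hH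
    have hk4 : 2 < k := by
      obtain ⟨j, hj⟩ := hkeven
      omega
    obtain ⟨Hb, hHb, hlt⟩ := ih k (by omega) (G ⧸ Subgroup.zpowers z) rfl hkeven hk4
    refine ⟨Hb.comap (QuotientGroup.mk' _), ?_, ?_⟩
    · intro h
      apply hHb
      rw [← Subgroup.index_eq_one] at h ⊢
      rwa [Subgroup.index_comap_of_surjective _ (QuotientGroup.mk'_surjective _)] at h
    · have h3 := (Hb.comap (QuotientGroup.mk' (Subgroup.zpowers z))).card_mul_index
      rw [Subgroup.index_comap_of_surjective _ (QuotientGroup.mk'_surjective _), hn, hq] at h3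
      have h4 := Hb.card_mul_index
      rw [← hk] at h4
      have hidx : 0 < Hb.index := Nat.pos_of_ne_zero Subgroup.index_ne_zero_of_finite
      have h5 : Nat.card (Hb.comap (QuotientGroup.mk' (Subgroup.zpowers z))) = Nat.card Hb * 2 := by
        apply Nat.eq_of_mul_eq_mul_right hidx
        rw [h3, ← h4]; ring
      rw [h5, hq]
      have hb : 0 < Nat.card Hb := Nat.card_pos
      nlinarith [pow_pos hb 3]
  · push Not at hc
    obtain ⟨H, hH, hmax⟩ := exists_max_proper (G := G)
    refine ⟨H, hH, ?_⟩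
    by_contra hle
    rw [not_lt] at hle
    have hbf := bf_main (Nat.card H) hmax h2 hc
    obtain ⟨t, ht⟩ := exists_prime_orderOf_dvd_card' (G := G) 2 (hn ▸ heven.two_dvd)
    have hC : Subgroup.centralizer ({t} : Set G) ≠ ⊤ := by
      intro h
      apply hc t ht
      rw [Subgroup.mem_center_iff]
      intro g
      have : g ∈ Subgroup.centralizer ({t} : Set G) := by rw [h]; trivial
      exact Subgroup.mem_centralizer_singleton_iff.1 this
    have h1 := card_le_mInv_mul ht
    have h3 : Nat.card G ≤ mInv G * Nat.card H := h1.trans (Nat.mul_le_mul_left _ (hmax _ hC))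
    rw [hn] at h3 hbf
    set M := Nat.card H with hM
    set m := mInv G with hm
    have hMpos : 0 < M := Nat.card_pos
    have hmle : m ≤ n := by
      rw [← hn]
      exact Nat.card_le_card_of_injective (fun t : {t : G // orderOf t = 2} => t.1)
        Subtype.val_injective
    -- n * M ≤ m ^ 2
    have h4 : n * M ≤ m ^ 2 := by
      have h5 : n * M * M ^ 2 ≤ m ^ 2 * M ^ 2 := by
        calc n * M * M ^ 2 = n * M ^ 3 := by ring
          _ ≤ n * n := Nat.mul_le_mul_left _ hle
          _ ≤ (m * M) * (m * M) := Nat.mul_le_mul h3 h3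
          _ = m ^ 2 * M ^ 2 := by ring
      exact Nat.le_of_mul_le_mul_right h5 (by positivity)
    have h6 : m * M ≤ n * M := Nat.mul_le_mul_right _ hmle
    omega

end Cfsg.Agent.Lib.Helper3.BrauerFowler
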