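import Cfsg.Agent.Lib.Helper3.Index2

set_option autoImplicit false

namespace Cfsg.Agent.Lib.Helper3.Invol

variable {G : Type*} [Group G]

/-- the type of conjugacy classes of involutions -/
abbrev InvClass (G : Type*) [Group G] :=
  {C : ConjClasses G // ∃ t : G, orderOf t = 2 ∧ ConjClasses.mk t = C}

section klein

variable [Finite G] (P : Sylow 2 G) (hP : IsKleinFour (P : Subgroup G))
include hP

theorem klein_order {a : G} (ha : a ∈ P) (h1 : a ≠ 1) : orderOf a = 2 := by
  rw [order_two_iff]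
  refine ⟨h1, ?_⟩
  exact congrArg Subtype.val (IsKleinFour.mul_self (⟨a, ha⟩ : (P : Subgroup G)))

theorem klein_comm {a b : G} (ha : a ∈ P) (hb : b ∈ P) : a * b = b * a := by
  have := (IsKleinFour.isMulCommutative (G := (P : Subgroup G))).is_comm.comm ⟨a, ha⟩ ⟨b, hb⟩
  exact congrArg Subtype.val this

/-- the map from nonidentity elements of `P` to classes of involutions -/
def kleinMap : {a : (P : Subgroup G) // a ≠ 1} → InvClass G := fun a =>
  ⟨ConjClasses.mk (a.1 : G), ⟨a.1, klein_order P hP a.1.2 (fun h => a.2 (Subtype.ext h)), rfl⟩⟩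

theorem kleinMap_surjective : Function.Surjective (kleinMap P hP) := by
  rintro ⟨C, t, ht, rfl⟩
  obtain ⟨h, hh⟩ := exists_conj_mem_sylow P (K := Subgroup.zpowers t)
    (IsPGroup.of_card (n := 1) (by rw [Nat.card_zpowers, ht, pow_one]))
  have h1 := hh t (Subgroup.mem_zpowers t)
  refine ⟨⟨⟨h * t * h⁻¹, h1⟩, ?_⟩, ?_⟩
  · intro h2
    have h3 : h * t * h⁻¹ = 1 := congrArg Subtype.val h2
    have : orderOf (h * t * h⁻¹) = 2 := by rw [order_conj, ht]
    exact ne_one_of_order this h3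
  · apply Subtype.ext
    change ConjClasses.mk (h * t * h⁻¹) = ConjClasses.mk t
    rw [ConjClasses.mk_eq_mk_iff_isConj]
    exact (isConj_iff.2 ⟨h, rfl⟩ : IsConj t (h * t * h⁻¹)).symm

theorem klein_card_ne_one : Nat.card {a : (P : Subgroup G) // a ≠ 1} = 3 := by
  classical
  have : Fintype (P : Subgroup G) := Fintype.ofFinite _
  rw [Nat.card_eq_fintype_card, Fintype.card_subtype, Finset.filter_ne',
    Finset.card_erase_of_mem (Finset.mem_univ _), Finset.card_univ, ← Nat.card_eq_fintype_card,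
    hP.card_four]

theorem klein_card_eq_three_iff :
    Nat.card (InvClass G) = 3 ↔ Function.Injective (kleinMap P hP) := by
  constructor
  · intro h
    have hb : Function.Bijective (kleinMap P hP) := by
      rw [Function.Bijective, and_comm]
      refine ⟨kleinMap_surjective P hP, ?_⟩
      have : Fintype {a : (P : Subgroup G) // a ≠ 1} := Fintype.ofFinite _
      have : Fintype (InvClass G) := Fintype.ofFinite _
      exact (Function.Surjective.bijective_of_nat_card_le (kleinMap_surjective P hP)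
        (by rw [klein_card_ne_one P hP, h])).1
    exact hb.1
  · intro h
    rw [← klein_card_ne_one P hP]
    exact (Nat.card_congr (Equiv.ofBijective _ ⟨h, kleinMap_surjective P hP⟩)).symm

theorem kleinMap_eq_iff (a b : {a : (P : Subgroup G) // a ≠ 1}) :
    kleinMap P hP a = kleinMap P hP b ↔ IsConj (a.1 : G) (b.1 : G) := by
  rw [← ConjClasses.mk_eq_mk_iff_isConj]
  exact ⟨fun h => congrArg Subtype.val h, fun h => Subtype.ext h⟩

/-- fusion in `P` is controlled by the normalizer -/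
theorem klein_fusion {a b : G} (ha : a ∈ P) (hb : b ∈ P) (hab : IsConj a b) :
    ∃ n ∈ Subgroup.normalizer ((P : Subgroup G) : Set G), n * a * n⁻¹ = b := by
  obtain ⟨g, rfl⟩ := isConj_iff.1 hab
  have : IsMulCommutative (P : Subgroup G) := IsKleinFour.isMulCommutative
  obtain ⟨n, hn, h⟩ := P.conj_eq_normalizer_conj_of_mem a g⁻¹ ha (by rwa [inv_inv])
  rw [inv_inv] at h
  exact ⟨n⁻¹, inv_mem hn, by rw [inv_inv, h]⟩

end klein

/-- a `p`-element normalizing a Sylow `p`-subgroup lies in it -/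
theorem mem_sylow_of_normalizer [Finite G] {p : ℕ} [Fact p.Prime] (P : Sylow p G) {n : G}
    (hn : n ∈ Subgroup.normalizer ((P : Subgroup G) : Set G)) {k : ℕ} (hk : n ^ p ^ k = 1) :
    n ∈ P := by
  have hZ : IsPGroup p (Subgroup.zpowers n) := by
    rintro ⟨z, hz⟩
    obtain ⟨i, rfl⟩ := Subgroup.mem_zpowers_iff.1 hz
    refine ⟨k, Subtype.ext ?_⟩
    change (n ^ i) ^ p ^ k = 1
    rw [← zpow_natCast, ← zpow_mul, mul_comm, zpow_mul, zpow_natCast, hk, one_zpow]
  have h1 := hZ.to_sup_of_normal_right' P.2 (by rwa [Subgroup.zpowers_le])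
  have h2 := P.is_maximal' h1 le_sup_right
  have h3 : n ∈ Subgroup.zpowers n ⊔ (P : Subgroup G) :=
    (le_sup_left : Subgroup.zpowers n ≤ _) (Subgroup.mem_zpowers n)
  rwa [h2] at h3

section klein2

variable [Finite G] (P : Sylow 2 G) (hP : IsKleinFour (P : Subgroup G))
include hP

theorem klein_complement_of_injective (h : Function.Injective (kleinMap P hP)) :
    ∃ N : Subgroup G, N.Normal ∧ Subgroup.IsComplement' N (P : Subgroup G) := by
  have hNC : Subgroup.normalizer ((P : Subgroup G) : Set G) ≤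
      Subgroup.centralizer ((P : Subgroup G) : Set G) := by
    intro n hn
    rw [Subgroup.mem_centralizer_iff]
    intro a ha
    by_cases h1 : a = 1
    · subst h1; simp
    have hb : n * a * n⁻¹ ∈ P := ((Subgroup.mem_normalizer_iff).1 hn a).1 ha
    have hb1 : n * a * n⁻¹ ≠ 1 := by
      apply ne_one_of_order
      rw [order_conj, klein_order P hP ha h1]
    have h2 := h ((kleinMap_eq_iff P hP ⟨⟨a, ha⟩, fun h => h1 (congrArg Subtype.val h)⟩
      ⟨⟨n * a * n⁻¹, hb⟩, fun h => hb1 (congrArg Subtype.val h)⟩).2 (isConj_iff.2 ⟨n, rfl⟩))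
    have h3 : a = n * a * n⁻¹ := congrArg (fun z : {a : (P : Subgroup G) // a ≠ 1} => (z.1.1 : G)) h2
    exact (mul_inv_eq_iff_eq_mul.1 h3.symm).symm
  exact ⟨_, inferInstance, MonoidHom.ker_transferSylow_isComplement' P hNC⟩

theorem klein_injective_of_complement {N : Subgroup G} (hN : N.Normal)
    (hc : Subgroup.IsComplement' N (P : Subgroup G)) : Function.Injective (kleinMap P hP) := by
  intro a b hab
  rw [kleinMap_eq_iff] at hab
  obtain ⟨g, hg⟩ := isConj_iff.1 hab
  obtain ⟨⟨⟨n, hn⟩, ⟨q, hq⟩⟩, hnq⟩ := hc.2 g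
  have hnq' : n * q = g := hnq
  have h1 : g * a.1.1 * g⁻¹ = n * a.1.1 * n⁻¹ := by
    rw [← hnq', mul_inv_rev, mul_assoc n q, klein_comm P hP hq a.1.2]
    group
  rw [h1] at hg
  have h2 : (b.1.1 : G) * (a.1.1 : G)⁻¹ ∈ N := by
    rw [← hg, mul_assoc, mul_assoc, ← mul_assoc (a.1.1 : G)]
    exact N.mul_mem hn (hN.conj_mem _ (N.inv_mem hn) _)
  have h3 : (b.1.1 : G) * (a.1.1 : G)⁻¹ ∈ (P : Subgroup G) := mul_mem b.1.2 (inv_mem a.1.2)
  have h4 := hc.disjoint.le_bot ⟨h2, h3⟩
  rw [Subgroup.mem_bot] at h4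
  exact Subtype.ext (Subtype.ext (mul_inv_eq_one.1 h4).symm)

theorem klein_card_one_of_not_injective (h : ¬ Function.Injective (kleinMap P hP)) :
    Nat.card (InvClass G) = 1 := by
  unfold Function.Injective at h
  push Not at h
  obtain ⟨⟨⟨a, ha⟩, ha1⟩, ⟨⟨b, hb⟩, hb1⟩, hab, hne⟩ := h
  rw [kleinMap_eq_iff] at hab
  simp only at hab
  have ha1' : a ≠ 1 := fun h => ha1 (Subtype.ext h)
  have hb1' : b ≠ 1 := fun h => hb1 (Subtype.ext h)
  have hne' : a ≠ b := fun h => hne (Subtype.ext (Subtype.ext h))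
  obtain ⟨n, hn, hnab⟩ := klein_fusion P hP ha hb hab
  -- the image of `b`
  have hc : n * b * n⁻¹ ∈ P := ((Subgroup.mem_normalizer_iff).1 hn b).1 hb
  have hc1 : n * b * n⁻¹ ≠ 1 := by
    apply ne_one_of_order
    rw [order_conj, klein_order P hP hb hb1']
  have hcb : n * b * n⁻¹ ≠ b := by
    intro h
    have h' : n * b * n⁻¹ = n * a * n⁻¹ := h.trans hnab.symm
    exact hne' (mul_left_cancel (mul_right_cancel h')).symm
  have hca : n * b * n⁻¹ ≠ a := by
    intro hswap
    -- `n` swaps `a` and `b`: pass to the 2-part of `n`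
    obtain ⟨k, m, hm, hkm⟩ := Nat.exists_eq_two_pow_mul_odd (orderOf_pos n).ne'
    obtain ⟨j, rfl⟩ := hm
    have hsq : (n * n) * a = a * (n * n) := by
      have : n * n * a * (n * n)⁻¹ = a := by
        calc n * n * a * (n * n)⁻¹ = n * (n * a * n⁻¹) * n⁻¹ := by group
          _ = a := by rw [hnab, hswap]
      exact mul_inv_eq_iff_eq_mul.1 this
    have hsqj : (n * n) ^ j * a = a * (n * n) ^ j := ((Commute.pow_left (show Commute (n * n) a from hsq) j)).eq
    have hpow : n ^ (2 * j + 1) = n * (n * n) ^ j := by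
      rw [pow_succ', pow_mul, pow_two]
    have hconj : n ^ (2 * j + 1) * a * (n ^ (2 * j + 1))⁻¹ = b := by
      rw [hpow, mul_inv_rev, mul_assoc n, hsqj, ← hnab]
      group
    have hmem : n ^ (2 * j + 1) ∈ P := by
      refine mem_sylow_of_normalizer P (pow_mem hn _) (k := k) ?_
      rw [← pow_mul, mul_comm, ← hkm, pow_orderOf_eq_one]
    rw [klein_comm P hP hmem ha, mul_assoc, mul_inv_cancel, mul_one] at hconj
    exact hne' hconj
  -- every nonidentity element of `P` is conjugate to `a`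
  have hall : ∀ x : {a : (P : Subgroup G) // a ≠ 1}, IsConj a (x.1 : G) := by
    rintro ⟨⟨x, hx⟩, hx1⟩
    simp only
    by_cases hxa : x = a
    · rw [hxa]
    by_cases hxb : x = b
    · rw [hxb]; exact hab
    have e1 := IsKleinFour.eq_mul_of_ne_all (G := (P : Subgroup G)) (x := ⟨a, ha⟩) (y := ⟨b, hb⟩)
      (z := ⟨x, hx⟩) ha1 hb1 (fun h => hne' (congrArg Subtype.val h)) hx1
      (fun h => hxa (congrArg Subtype.val h)) (fun h => hxb (congrArg Subtype.val h))
    have e2 := IsKleinFour.eq_mul_of_ne_all (G := (P : Subgroup G)) (x := ⟨a, ha⟩) (y := ⟨b, hb⟩)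
      (z := ⟨n * b * n⁻¹, hc⟩) ha1 hb1 (fun h => hne' (congrArg Subtype.val h))
      (fun h => hc1 (congrArg Subtype.val h))
      (fun h => hca (congrArg Subtype.val h)) (fun h => hcb (congrArg Subtype.val h))
    have e3 : x = n * b * n⁻¹ := congrArg Subtype.val (e1.trans e2.symm)
    rw [e3]
    exact hab.trans (isConj_iff.2 ⟨n, rfl⟩)
  rw [Nat.card_eq_one_iff_unique]
  refine ⟨⟨fun C D => ?_⟩, ⟨kleinMap P hP ⟨⟨a, ha⟩, ha1⟩⟩⟩
  obtain ⟨x, rfl⟩ := kleinMap_surjective P hP C
  obtain ⟨y, rfl⟩ := kleinMap_surjective P hP D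
  rw [kleinMap_eq_iff]
  exact (hall x).symm.trans (hall y)

end klein2

end Cfsg.Agent.Lib.Helper3.Invol
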