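import Mathlib

set_option autoImplicit false

namespace Cfsg.Agent.Lib.Helper3.SLn

open Matrix Matrix.SpecialLinearGroup
open scoped LinearAlgebra.Projectivization commutatorElement

variable {F : Type*} [Field F] {ι : Type*} [Fintype ι] [DecidableEq ι]

theorem diag2n_decompose {i j : ι} (hij : i ≠ j) (a : F) (ha : a ≠ 0) :
    diag2n hij a ha = transvection hij a * transvection hij.symm (-a⁻¹) * transvection hij a *
      transvection hij (-1) * transvection hij.symm 1 * transvection hij (-1) := by
  apply Subtype.ext
  simp only [coe_mul, transvection_coe, diag2n_coe]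
  have hd : diagonal (fun k ↦ if k = i then a else if k = j then a⁻¹ else 1)
      = 1 + single i i (a-1) + single j j (a⁻¹-1) := by
    ext k l
    simp only [diagonal_apply, Matrix.add_apply, Matrix.one_apply, Matrix.single_apply]
    by_cases h1 : k = l <;> by_cases h2 : k = i <;> by_cases h3 : k = j <;> simp_all <;> grind
  rw [hd]
  simp only [mul_add, add_mul, mul_one, one_mul, single_mul_single_same,
    single_mul_single_of_ne _ _ _ _ hij, single_mul_single_of_ne _ _ _ _ hij.symm, add_zero]
  ext k l
  simp only [Matrix.add_apply, Matrix.one_apply, Matrix.single_apply]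
  by_cases h1 : k = l <;> by_cases h2 : i = k <;> by_cases h3 : j = k <;> by_cases h4 : i = l <;>
    by_cases h5 : j = l <;> simp_all

theorem transvection_induction [Nontrivial ι] (P : SpecialLinearGroup ι F → Prop)
    (htransvec : ∀ (i j : ι) (h : i ≠ j) (c : F), P (transvection h c))
    (hmul : ∀ A B, P A → P B → P (A * B)) (A : SpecialLinearGroup ι F) : P A := by
  refine diagonal_transvection_induction' P _ (fun i j hij c hc ↦ ?_) htransvec hmul
  rw [diag2n_decompose hij c hc]
  refine hmul _ _ (hmul _ _ (hmul _ _ (hmul _ _ (hmul _ _ ?_ ?_) ?_) ?_) ?_) ?_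
  all_goals exact htransvec _ _ _ _

theorem transvection_eq_commutator {i j k : ι} (hij : i ≠ j) (hik : i ≠ k) (hkj : k ≠ j) (c : F) :
    transvection hij c = ⁅transvection hik c, transvection hkj (1 : F)⁆ := by
  rw [commutatorElement_def, transvection_inv, transvection_inv]
  apply Subtype.ext
  simp only [coe_mul, transvection_coe]
  simp only [mul_add, add_mul, mul_one, one_mul, single_mul_single_same,
    single_mul_single_of_ne _ _ _ _ hij, single_mul_single_of_ne _ _ _ _ hij.symm,
    single_mul_single_of_ne _ _ _ _ hik, single_mul_single_of_ne _ _ _ _ hik.symm,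
    single_mul_single_of_ne _ _ _ _ hkj, single_mul_single_of_ne _ _ _ _ hkj.symm, add_zero]
  ext a b
  simp only [Matrix.add_apply, Matrix.one_apply, Matrix.single_apply]
  by_cases h1 : a = b <;> by_cases h2 : i = a <;> by_cases h3 : j = b <;> by_cases h4 : k = a <;>
    by_cases h5 : k = b <;> simp_all

theorem commutator_eq_top (h3 : 3 ≤ Fintype.card ι) :
    commutator (SpecialLinearGroup ι F) = ⊤ := by
  have : Nontrivial ι := Fintype.one_lt_card_iff_nontrivial.1 (by omega)
  refine le_antisymm le_top (fun A _ ↦ transvection_induction _ ?_ (fun _ _ ↦ mul_mem) A)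
  intro i j hij c
  obtain ⟨k, hk⟩ : ∃ k, k ∉ ({i, j} : Finset ι) := by
    by_contra hcon
    push Not at hcon
    have : Fintype.card ι ≤ ({i, j} : Finset ι).card := by
      rw [← Finset.card_univ]
      exact Finset.card_le_card (fun x _ => hcon x)
    have h2 : ({i, j} : Finset ι).card ≤ 2 := Finset.card_le_two
    omega
  simp only [Finset.mem_insert, Finset.mem_singleton, not_or] at hk
  rw [transvection_eq_commutator hij (Ne.symm hk.1) hk.2 c]
  exact Subgroup.commutator_mem_commutator (Subgroup.mem_top _) (Subgroup.mem_top _)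

theorem iSup_lineStab_eq_top [Nontrivial ι] :
    (⨆ p : ℙ F (ι → F), lineStab p.submodule) = (⊤ : Subgroup (SpecialLinearGroup ι F)) := by
  refine le_antisymm le_top (fun A _ ↦ transvection_induction _ ?_ (fun _ _ ↦ mul_mem) A)
  intro i j hij c
  have h := SL2Gen.transvection_mem_lineStab (F := F) hij c
  rw [← Projectivization.submodule_mk (K := F) _ (Pi.single_ne_zero_iff.2 one_ne_zero)] at h
  exact Subgroup.mem_iSup_of_mem _ h

theorem iSup_iwasawaT_eq_top [Nontrivial ι] :
    iSup (PSL.iwasawaT (F := F) (ι := ι)) = ⊤ := by
  have step1 : iSup (PSL.iwasawaT (F := F) (ι := ι)) =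
      Subgroup.map (QuotientGroup.mk' (Subgroup.center (Matrix.SpecialLinearGroup ι F)))
        (⨆ p : ℙ F (ι → F),
          Matrix.SpecialLinearGroup.lineStab (F := F) (ι := ι) p.submodule) := by
    rw [Subgroup.map_iSup]
  rw [step1, iSup_lineStab_eq_top]
  exact Subgroup.map_top_of_surjective _ (QuotientGroup.mk'_surjective _)

/-- The Iwasawa structure on `PSL(ι, F)`. -/
noncomputable def iwasawa [Nontrivial ι] :
    MulAction.IwasawaStructure (Matrix.ProjectiveSpecialLinearGroup ι F) (ℙ F (ι → F)) where
  T := PSL.iwasawaT
  is_comm p := by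
    have hSL : IsMulCommutative (lineStab (F := F) (ι := ι) p.submodule) := by
      rw [← Projectivization.mk_rep p, Projectivization.submodule_mk]
      exact lineStab_isMulCommutative_of_span p.rep p.rep_nonzero
    exact Subgroup.map_isMulCommutative _ _
  is_conj g p := by
    obtain ⟨g_SL, rfl⟩ := QuotientGroup.mk_surjective g
    rw [Matrix.ProjectiveSpecialLinearGroup.smul_proj_mk]
    change Subgroup.map _ _ = _
    rw [PSL.smul_submodule, Matrix.SpecialLinearGroup.lineStab_smul,
      PSL.iwasawaT_map_conj]
  is_generator := iSup_iwasawaT_eq_top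

theorem psl_commutator_eq_top (h3 : 3 ≤ Fintype.card ι) :
    commutator (Matrix.ProjectiveSpecialLinearGroup ι F) = ⊤ := by
  have : Group.IsPerfect (SpecialLinearGroup ι F) := ⟨commutator_eq_top h3⟩
  have : Group.IsPerfect (Matrix.ProjectiveSpecialLinearGroup ι F) := inferInstance
  exact this.commutator_eq_top

theorem psl_simple (h3 : 3 ≤ Fintype.card ι) :
    IsSimpleGroup (Matrix.ProjectiveSpecialLinearGroup ι F) := by
  have : Nontrivial ι := Fintype.one_lt_card_iff_nontrivial.1 (by omega)
  exact MulAction.IwasawaStructure.isSimpleGroup (psl_commutator_eq_top h3) iwasawa inferInstance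

/-- diag(a at i, 1 elsewhere) as an element of GL -/
def dilation (i : ι) (a : F) (ha : a ≠ 0) : GeneralLinearGroup ι F where
  val := 1 + single i i (a - 1)
  inv := 1 + single i i (a⁻¹ - 1)
  val_inv := by
    simp only [mul_add, add_mul, mul_one, one_mul, single_mul_single_same]
    rw [add_assoc, ← single_add, ← single_add]
    have : (a - 1 + (a⁻¹ - 1 + (a - 1) * (a⁻¹ - 1))) = 0 := by field_simp; ring
    rw [this]; simp
  inv_val := by
    simp only [mul_add, add_mul, mul_one, one_mul, single_mul_single_same]
    rw [add_assoc, ← single_add, ← single_add]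
    have : (a⁻¹ - 1 + (a - 1 + (a⁻¹ - 1) * (a - 1))) = 0 := by field_simp; ring
    rw [this]; simp

theorem toGL_transvection_eq_commutator {i j : ι} (hij : i ≠ j) (a : F) (ha : a ≠ 0) (b : F) :
    (toGL (transvection hij ((a - 1) * b)) : GeneralLinearGroup ι F) =
      ⁅dilation i a ha, toGL (transvection hij b)⁆ := by
  rw [commutatorElement_def, ← map_inv, transvection_inv]
  apply Units.ext
  simp only [Units.val_mul, coe_GL_coe_matrix, transvection_coe, dilation, Units.inv_mk]
  simp only [mul_add, add_mul, mul_one, one_mul, single_mul_single_same,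
    single_mul_single_of_ne _ _ _ _ hij, single_mul_single_of_ne _ _ _ _ hij.symm, add_zero]
  ext k l
  simp only [Matrix.add_apply, Matrix.one_apply, Matrix.single_apply]
  by_cases h1 : k = l <;> by_cases h2 : i = k <;> by_cases h3 : j = l <;> by_cases h4 : i = l <;>
    simp_all <;> field_simp <;> ring

theorem gl_commutator_eq_ker_det (h : Fintype.card ι = 2 → ∃ a : F, a ≠ 0 ∧ a ≠ 1) :
    commutator (GeneralLinearGroup ι F) =
      (GeneralLinearGroup.det : GeneralLinearGroup ι F →* Fˣ).ker := by
  apply le_antisymm (Abelianization.commutator_subset_ker _)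
  intro A hA
  have hdet : (A : Matrix ι ι F).det = 1 := by
    have := congrArg Units.val (MonoidHom.mem_ker.1 hA)
    simpa using this
  obtain ⟨B, rfl⟩ : ∃ B : SpecialLinearGroup ι F, toGL B = A := ⟨⟨A, hdet⟩, Units.ext rfl⟩
  clear hA hdet
  rcases lt_or_ge (Fintype.card ι) 2 with h1 | h2
  · have hB : B = 1 := by
      rcases isEmpty_or_nonempty ι with he | hne
      · exact Subsingleton.elim _ _
      · have : Subsingleton ι := Fintype.card_le_one_iff_subsingleton.1 (by omega)
        obtain ⟨i⟩ := hne
        have : Unique ι := ⟨⟨i⟩, fun _ => Subsingleton.elim _ _⟩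
        apply Subtype.ext
        have hd := B.2
        rw [det_unique] at hd
        ext k l
        rw [Subsingleton.elim k default, Subsingleton.elim l default, hd]
        simp
    rw [hB, map_one]; exact one_mem _
  · have : Nontrivial ι := Fintype.one_lt_card_iff_nontrivial.1 (by omega)
    refine transvection_induction (fun B => (toGL B : GeneralLinearGroup ι F) ∈ commutator _) ?_
      (fun _ _ hA hB ↦ by rw [map_mul]; exact mul_mem hA hB) B
    intro i j hij c
    rcases eq_or_lt_of_le h2 with h2 | h3
    · obtain ⟨a, ha0, ha1⟩ := h h2.symm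
      have : c = (a - 1) * ((a - 1)⁻¹ * c) := by
        rw [← mul_assoc, mul_inv_cancel₀ (sub_ne_zero.2 ha1), one_mul]
      rw [this, toGL_transvection_eq_commutator hij a ha0]
      exact Subgroup.commutator_mem_commutator (Subgroup.mem_top _) (Subgroup.mem_top _)
    · have hm : transvection hij c ∈ commutator (SpecialLinearGroup ι F) := by
        rw [commutator_eq_top (by omega)]; trivial
      have := Subgroup.mem_map_of_mem (toGL : SpecialLinearGroup ι F →* GeneralLinearGroup ι F) hm
      rw [commutator_def, Subgroup.map_commutator] at this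
      exact Subgroup.commutator_mono le_top le_top this

end Cfsg.Agent.Lib.Helper3.SLn
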