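import Cfsg.Agent.Lib.Helper3.Avg
import Cfsg.Agent.Lib.Helper3.CN
import Cfsg.Agent.Lib.Helper1.PNil

namespace Cfsg.Agent.Lib.Helper3.Small2

theorem numeric {k j r : ℕ} (hk : k ≤ 3) (hj : j < k) (hr : r.Prime) (hr2 : r ≠ 2)
    (h : 2 ^ k ≡ 2 ^ j [MOD r]) : (r = 3 ∧ 2 ≤ k) ∨ (r = 7 ∧ k = 3) := by
  have hle : 2 ^ j ≤ 2 ^ k := Nat.pow_le_pow_right (by norm_num) hj.le
  have hd : r ∣ 2 ^ k - 2 ^ j := (Nat.modEq_iff_dvd' hle).1 h.symm
  have h2 := hr.two_le
  have hpos : 0 < 2 ^ k - 2 ^ j := Nat.sub_pos_of_lt (Nat.pow_lt_pow_right (by norm_num) hj)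
  have hle' := Nat.le_of_dvd hpos hd
  interval_cases k <;> interval_cases j <;> simp only [Nat.reducePow, Nat.reduceSub] at hd hle' <;>
    interval_cases r <;> first | omega | (exfalso; revert hr; decide) | (exfalso; revert hd; decide)

variable {G : Type*} [Group G] [Finite G]

/-- elements of odd order normalizing a 2-group of order at most 8 centralize it, unless 3 or 7
intervene -/
theorem odd_centralizes (Q : Subgroup G) (k : ℕ) (hk : k ≤ 3) (hQ : Nat.card Q = 2 ^ k) {g : G}
    (hg : g ∈ Subgroup.normalizer (Q : Set G)) (hodd : (orderOf g).Coprime 2)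
    (h3 : 2 ≤ k → ¬ 3 ∣ orderOf g) (h7 : k = 3 → ¬ 7 ∣ orderOf g) :
    g ∈ Subgroup.centralizer (Q : Set G) := by
  have hle : Subgroup.zpowers g ≤ Subgroup.centralizer (Q : Set G) := by
    apply CN.le_of_pgroups_le
    intro r hr R hRg hR
    haveI : Fact r.Prime := ⟨hr⟩
    by_cases hR1 : R = ⊥
    · rw [hR1]; exact bot_le
    have hcard : Nat.card R ∣ orderOf g := by
      rw [← Nat.card_zpowers]
      exact Subgroup.card_dvd_of_le hRg
    have hrd : r ∣ orderOf g := by
      obtain ⟨n, hn⟩ := hR.exists_card_eq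
      refine Dvd.dvd.trans ?_ hcard
      rw [hn]
      apply dvd_pow_self
      rintro rfl
      rw [pow_zero] at hn
      exact hR1 (Subgroup.card_eq_one.1 hn)
    have hr2 : r ≠ 2 := by
      rintro rfl
      exact absurd (Nat.Coprime.eq_one_of_dvd hodd.symm hrd) (by norm_num)
    have hRN : R ≤ Subgroup.normalizer (Q : Set G) :=
      hRg.trans (by rwa [Subgroup.zpowers_le])
    letI : MulDistribMulAction R Q := Avg.act R Q hRN
    have hmod := hR.card_modEq_card_fixedPoints (α := Q)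
    have hfix : Nat.card (MulAction.fixedPoints R Q) = Nat.card (FixedPoints.subgroup R Q) := rfl
    have hdvd : Nat.card (FixedPoints.subgroup R Q) ∣ 2 ^ k := by
      rw [← hQ]
      exact Subgroup.card_subgroup_dvd_card _
    obtain ⟨j, hjk, hj⟩ := (Nat.dvd_prime_pow Nat.prime_two).1 hdvd
    rw [hfix, hj, hQ] at hmod
    rcases Nat.lt_or_ge j k with hlt | hge
    · exfalso
      rcases numeric hk hlt hr hr2 hmod with ⟨rfl, h⟩ | ⟨rfl, h⟩
      · exact h3 h hrd
      · exact h7 h hrd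
    · have hjk' : j = k := le_antisymm hjk hge
      have htop : FixedPoints.subgroup R Q = ⊤ := by
        apply Subgroup.eq_top_of_card_eq
        rw [hj, hQ, hjk']
      intro x hx
      rw [Subgroup.mem_centralizer_iff]
      intro q hq
      have h1 : (⟨q, hq⟩ : Q) ∈ FixedPoints.subgroup R Q := by rw [htop]; trivial
      have h2 := (FixedPoints.mem_subgroup R Q (⟨q, hq⟩ : Q)).1 h1 ⟨x, hx⟩
      have h3 : x * q * x⁻¹ = q := congrArg Subtype.val h2
      calc q * x = (x * q * x⁻¹) * x := by rw [h3]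
        _ = x * q := by group
  exact hle (Subgroup.mem_zpowers g)

end Cfsg.Agent.Lib.Helper3.Small2
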