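import Mathlib

namespace Cfsg.Agent.Lib.Helper3.Wielandt

open scoped Pointwise

variable (G : Type*) [Group G] [Fintype G] [DecidableEq G] (k : ℕ)

/-- subsets of size `k` -/
def KSub := {S : Finset G // S.card = k}

instance : Finite (KSub G k) := inferInstanceAs (Finite {S : Finset G // S.card = k})

instance : MulAction G (KSub G k) where
  smul g S := ⟨g • S.1, by rw [Finset.card_smul_finset]; exact S.2⟩
  one_smul S := Subtype.ext (one_smul G S.1)
  mul_smul g h S := Subtype.ext (mul_smul g h S.1)

variable {G k}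

theorem smul_val (g : G) (S : KSub G k) : (g • S).1 = g • S.1 := rfl

theorem card_KSub : Nat.card (KSub G k) = (Nat.card G).choose k := by
  rw [Nat.card_eq_fintype_card (α := G), ← Fintype.card_finset_len, ← Nat.card_eq_fintype_card]
  rfl

theorem mul_mem_of_stab {S : KSub G k} {t : G} (ht : t ∈ MulAction.stabilizer G S) {x : G}
    (hx : x ∈ S.1) : t * x ∈ S.1 := by
  have h0 : t • S = S := MulAction.mem_stabilizer_iff.1 ht
  have h1 : t • S.1 = S.1 := congrArg (fun z : KSub G k => z.1) h0
  rw [← h1]
  exact Finset.smul_mem_smul_finset hx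

theorem card_stab_dvd (S : KSub G k) : Nat.card (MulAction.stabilizer G S) ∣ k := by
  let A : SubMulAction (MulAction.stabilizer G S) G :=
    { carrier := (S.1 : Set G)
      smul_mem' := fun t x hx => mul_mem_of_stab t.2 hx }
  have hfree : ∀ a : A, MulAction.stabilizer (MulAction.stabilizer G S) a = ⊥ := by
    intro a
    rw [eq_bot_iff]
    intro t ht
    rw [MulAction.mem_stabilizer_iff] at ht
    have h1 : (t : G) * (a : G) = a := congrArg Subtype.val ht
    rw [Subgroup.mem_bot]
    exact Subtype.ext (mul_eq_right.1 h1)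
  have e := MulAction.selfEquivOrbitsQuotientProd hfree
  have h1 : Nat.card A = k := by
    have : Nat.card A = Nat.card (S.1 : Set G) := rfl
    rw [this, Nat.card_coe_set_eq, Set.ncard_coe_finset, S.2]
  have h2 := Nat.card_congr e
  rw [Nat.card_prod, h1] at h2
  exact Dvd.intro_left _ h2.symm

theorem card_stab_of_orbit {x y : KSub G k} (h : y ∈ MulAction.orbit G x) :
    Nat.card (MulAction.stabilizer G y) = Nat.card (MulAction.stabilizer G x) := by
  obtain ⟨g, rfl⟩ := h
  show Nat.card (MulAction.stabilizer G (g • x)) = _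
  rw [MulAction.stabilizer_smul_eq_stabilizer_map_conj,
    Subgroup.card_map_of_injective (MulAut.conj g).injective]

/-- a subgroup as a finset -/
noncomputable def fin (H : Subgroup G) : Finset G := (Set.toFinite (H : Set G)).toFinset

theorem mem_fin {H : Subgroup G} {x : G} : x ∈ fin H ↔ x ∈ H := by
  simp [fin]

theorem card_fin (H : Subgroup G) : (fin H).card = Nat.card H := by
  rw [fin, ← Set.ncard_eq_toFinset_card (H : Set G)]
  rfl

theorem fin_inj {H K : Subgroup G} (h : fin H = fin K) : H = K := by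
  ext x
  rw [← mem_fin, h, mem_fin]

theorem smul_fin_eq {H : Subgroup G} {g : G} (hg : g ∈ H) : g • fin H = fin H := by
  ext y
  rw [← Finset.inv_smul_mem_iff, mem_fin, mem_fin, smul_eq_mul]
  exact H.mul_mem_cancel_left (H.inv_mem hg)

/-- the point of `KSub` given by a subgroup of order `k` -/
noncomputable def pt (H : Subgroup G) (hH : Nat.card H = k) : KSub G k :=
  ⟨fin H, by rw [card_fin, hH]⟩

theorem stab_pt (H : Subgroup G) (hH : Nat.card H = k) :
    MulAction.stabilizer G (pt H hH) = H := by
  ext g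
  rw [MulAction.mem_stabilizer_iff]
  constructor
  · intro h
    have h1 : g • fin H = fin H := congrArg (fun z : KSub G k => z.1) h
    have h2 : g * 1 ∈ g • fin H := Finset.smul_mem_smul_finset (mem_fin.2 H.one_mem)
    rw [h1, mem_fin, mul_one] at h2
    exact h2
  · intro h
    exact Subtype.ext (smul_fin_eq h)

theorem out_mem_orbit (x : KSub G k) :
    (Quotient.mk'' x : MulAction.orbitRel.Quotient G (KSub G k)).out ∈ MulAction.orbit G x := by
  have h := Quotient.mk_out (s := MulAction.orbitRel G (KSub G k)) x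
  exact MulAction.orbitRel_apply.1 h

theorem card_orbits (hk : 0 < k) :
    Nat.card {ω : MulAction.orbitRel.Quotient G (KSub G k) //
        Nat.card (MulAction.stabilizer G ω.out) = k}
      = Nat.card {H : Subgroup G // Nat.card H = k} := by
  symm
  let F : {H : Subgroup G // Nat.card H = k} →
      {ω : MulAction.orbitRel.Quotient G (KSub G k) //
        Nat.card (MulAction.stabilizer G ω.out) = k} :=
    fun H => ⟨Quotient.mk'' (pt H.1 H.2), by
      rw [card_stab_of_orbit (out_mem_orbit (pt H.1 H.2)), stab_pt, H.2]⟩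
  apply Nat.card_congr (Equiv.ofBijective F ⟨?_, ?_⟩)
  · rintro ⟨H, hH⟩ ⟨K, hK⟩ h
    have h1 : (Quotient.mk'' (pt H hH) : MulAction.orbitRel.Quotient G (KSub G k)) =
        Quotient.mk'' (pt K hK) := congrArg Subtype.val h
    rw [Quotient.eq''] at h1
    obtain ⟨g, hg⟩ := MulAction.orbitRel_apply.1 h1
    have h2 : g • fin K = fin H := congrArg (fun z : KSub G k => z.1) hg
    have h3 : (1 : G) ∈ g • fin K := by rw [h2, mem_fin]; exact H.one_mem
    rw [← Finset.inv_smul_mem_iff, mem_fin, smul_eq_mul, mul_one] at h3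
    have h4 : g ∈ K := by simpa using K.inv_mem h3
    rw [smul_fin_eq h4] at h2
    exact Subtype.ext (fin_inj h2.symm)
  · rintro ⟨ω, hω⟩
    obtain ⟨S, hS⟩ : ∃ S, S = ω.out := ⟨_, rfl⟩
    rw [← hS] at hω
    have hne : S.1.Nonempty := by
      rw [← Finset.card_pos, S.2]; exact hk
    obtain ⟨s, hs⟩ := hne
    have hHc : Nat.card ((MulAction.stabilizer G S).map (MulAut.conj s⁻¹).toMonoidHom) = k := by
      rw [Subgroup.card_map_of_injective (MulAut.conj s⁻¹).injective, hω]
    refine ⟨⟨_, hHc⟩, ?_⟩
    apply Subtype.ext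
    show (Quotient.mk'' (pt _ hHc) : MulAction.orbitRel.Quotient G (KSub G k)) = ω
    have h1 : pt _ hHc = s⁻¹ • S := by
      apply Subtype.ext
      show fin _ = s⁻¹ • S.1
      apply Finset.eq_of_subset_of_card_le
      · intro h hh
        rw [mem_fin] at hh
        obtain ⟨t, ht, rfl⟩ := hh
        rw [Finset.mem_inv_smul_finset_iff, smul_eq_mul]
        have h2 := mul_mem_of_stab ht hs
        have e1 : s * (MulAut.conj s⁻¹).toMonoidHom t = t * s := by
          show s * (s⁻¹ * t * s⁻¹⁻¹) = t * s
          group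
        rw [e1]; exact h2
      · rw [Finset.card_smul_finset, S.2, card_fin, hHc]
    rw [h1, ← Quotient.out_eq' ω, ← hS, Quotient.eq'']
    exact MulAction.orbitRel_apply.2 ⟨s⁻¹, rfl⟩

theorem main_congr {p β m : ℕ} [hp : Fact p.Prime] (hG : Nat.card G = p ^ β * m) :
    (p ^ β * m).choose (p ^ β) ≡
      m * Nat.card {H : Subgroup G // Nat.card H = p ^ β} [MOD p * m] := by
  classical
  have hkpos : 0 < p ^ β := pow_pos hp.out.pos β
  haveI : Fintype (MulAction.orbitRel.Quotient G (KSub G (p ^ β))) := Fintype.ofFinite _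
  have h1 : Nat.card (KSub G (p ^ β)) =
      ∑ ω : MulAction.orbitRel.Quotient G (KSub G (p ^ β)),
        (MulAction.stabilizer G ω.out).index := by
    rw [Nat.card_congr (MulAction.selfEquivSigmaOrbitsQuotientStabilizer G (KSub G (p ^ β))),
      Nat.card_sigma]
    rfl
  rw [← hG, ← card_KSub, h1, ← card_orbits hkpos]
  have h2 : m * Nat.card {ω : MulAction.orbitRel.Quotient G (KSub G (p ^ β)) //
        Nat.card (MulAction.stabilizer G ω.out) = p ^ β} =
      ∑ ω : MulAction.orbitRel.Quotient G (KSub G (p ^ β)),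
        if Nat.card (MulAction.stabilizer G ω.out) = p ^ β then m else 0 := by
    rw [Nat.card_eq_fintype_card, Fintype.card_subtype, Finset.sum_ite, Finset.sum_const,
      Finset.sum_const_zero, add_zero, smul_eq_mul, mul_comm]
  rw [h2]
  apply Nat.ModEq.sum
  intro ω _
  have h3 := (MulAction.stabilizer G ω.out).card_mul_index
  rw [hG] at h3
  split_ifs with hc
  · rw [hc] at h3
    rw [Nat.eq_of_mul_eq_mul_left hkpos h3]
  · obtain ⟨j, hj, hj'⟩ := (Nat.dvd_prime_pow hp.out).1 (card_stab_dvd ω.out)
    have hjlt : j < β := by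
      rcases Nat.lt_or_ge j β with h | h
      · exact h
      · exfalso; apply hc; rw [hj', le_antisymm hj h]
    rw [hj'] at h3
    obtain ⟨d, rfl⟩ : ∃ d, β = j + 1 + d := ⟨β - (j + 1), by omega⟩
    have h4 : p ^ j * (MulAction.stabilizer G ω.out).index = p ^ j * (p * m * p ^ d) := by
      rw [h3]; ring
    rw [Nat.eq_of_mul_eq_mul_left (pow_pos hp.out.pos j) h4]
    exact (Nat.modEq_zero_iff_dvd.2 (dvd_mul_right _ _))

theorem cyclic_subgroup_unique {C : Type*} [Group C] [Finite C] [IsCyclic C] {k : ℕ} (hk : 0 < k)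
    (H K : Subgroup C) (hH : Nat.card H = k) (hK : Nat.card K = k) : H = K := by
  classical
  haveI : Fintype C := Fintype.ofFinite C
  have h1 := IsCyclic.card_pow_eq_one_le (α := C) hk
  have key : ∀ L : Subgroup C, Nat.card L = k →
      fin L = Finset.univ.filter (fun a : C => a ^ k = 1) := by
    intro L hL
    apply Finset.eq_of_subset_of_card_le
    · intro g hg
      rw [mem_fin] at hg
      rw [Finset.mem_filter]
      refine ⟨Finset.mem_univ _, ?_⟩
      have h2 : (⟨g, hg⟩ : L) ^ k = 1 := by rw [← hL]; exact pow_card_eq_one'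
      exact congrArg Subtype.val h2
    · rw [card_fin, hL]; exact h1
  exact fin_inj ((key H hH).trans (key K hK).symm)

theorem frobenius {G : Type*} [Group G] [Finite G] (p β : ℕ) (hp : p.Prime)
    (hdiv : p ^ β ∣ Nat.card G) :
    Nat.card {H : Subgroup G // Nat.card H = p ^ β} ≡ 1 [MOD p] := by
  classical
  haveI := Fact.mk hp
  haveI : Fintype G := Fintype.ofFinite G
  obtain ⟨m, hm⟩ := hdiv
  have hmpos : 0 < m := by
    rcases Nat.eq_zero_or_pos m with rfl | h
    · rw [mul_zero] at hm
      exact absurd hm Nat.card_pos.ne'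
    · exact h
  have hn : 0 < p ^ β * m := Nat.mul_pos (pow_pos hp.pos β) hmpos
  haveI : NeZero (p ^ β * m) := ⟨hn.ne'⟩
  have hC : Nat.card (Multiplicative (ZMod (p ^ β * m))) = p ^ β * m := by
    rw [Nat.card_eq_fintype_card, Fintype.card_multiplicative, ZMod.card]
  have h1 := main_congr (G := G) hm
  have h2 := main_congr (G := Multiplicative (ZMod (p ^ β * m))) hC
  have h3 : Nat.card {H : Subgroup (Multiplicative (ZMod (p ^ β * m))) // Nat.card H = p ^ β} = 1 := by
    rw [Nat.card_eq_one_iff_unique]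
    constructor
    · constructor
      rintro ⟨H, hH⟩ ⟨K, hK⟩
      exact Subtype.ext (cyclic_subgroup_unique (pow_pos hp.pos β) H K hH hK)
    · obtain ⟨H, hH⟩ := Sylow.exists_subgroup_card_pow_prime
        (G := Multiplicative (ZMod (p ^ β * m))) p (n := β) (by rw [hC]; exact dvd_mul_right _ _)
      exact ⟨⟨H, hH⟩⟩
  rw [h3] at h2
  have h4 := h1.symm.trans h2
  rw [mul_comm p m] at h4
  exact Nat.ModEq.mul_left_cancel' hmpos.ne' h4

end Cfsg.Agent.Lib.Helper3.Wielandt
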